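import Cfsg.Agent.H97.SubfieldConj

/-! The index of the subfield subgroup of the special linear group, and descent for diagonal operators. -/

set_option autoImplicit false
set_option linter.unusedSectionVars false
set_option linter.style.haveILetI false

namespace Cfsg.Agent.H19.SubF

open Module
open scoped Matrix

variable {F : Type*} [Field F] [Fintype F]

/-- Primes dividing the index of the subfield subgroup. -/
theorem exists_of_dvd_index {n : ℕ} (hn : 2 ≤ n) {F₀ : Subfield F} {k q₀ : ℕ} (hk : 0 < k)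
    (hF₀ : Nat.card F₀ = q₀) (hqk : Fintype.card F = q₀ ^ k) {r : ℕ} (hr : r.Prime) (hrq₀ : ¬ r ∣ q₀)
    (hΩ : r ∣ ((Cfsg.Geo.subfieldSubgroup F₀ 1).comap
      (Matrix.SpecialLinearGroup.toGL : Matrix.SpecialLinearGroup (Fin n) F →* GL (Fin n) F)).index) :
    ∃ j, 2 ≤ j ∧ j ≤ n ∧ r ∣ ∑ l ∈ Finset.range k, (q₀ ^ j) ^ l := by
  classical
  obtain ⟨n, rfl⟩ : ∃ m, n = m + 1 := ⟨n - 1, by omega⟩
  haveI : Fintype F₀ := Fintype.ofFinite _
  have hcard0 : Fintype.card F₀ = q₀ := by rw [← hF₀, Nat.card_eq_fintype_card]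
  have hq03 : 2 ≤ q₀ := by rw [← hcard0]; exact Fintype.one_lt_card
  let φ : Matrix.SpecialLinearGroup (Fin (n + 1)) F₀ →* Matrix.SpecialLinearGroup (Fin (n + 1)) F :=
    Matrix.SpecialLinearGroup.map (F₀.subtype : F₀ →+* F)
  have hdvd : r ∣ φ.range.index := by
    refine hΩ.trans (Subgroup.index_dvd_of_le ?_)
    rintro _ ⟨A, rfl⟩
    refine (Agent.H97.comap_subfield_mem _).2 ⟨1, one_ne_zero, fun a b => ?_⟩
    rw [one_mul]
    exact ((A : Matrix (Fin (n + 1)) (Fin (n + 1)) F₀) a b).2
  have hφinj : Function.Injective φ := fun A B h => by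
    apply Subtype.ext
    ext a b
    exact congrFun (congrFun (congrArg Subtype.val h) a) b
  have hrange : Nat.card φ.range = Nat.card (Matrix.SpecialLinearGroup (Fin (n + 1)) F₀) :=
    (Nat.card_congr (MonoidHom.ofInjective hφinj).toEquiv).symm
  have hGL : ∀ (L : Type _) [Field L] [Fintype L], Nat.card (Matrix.SpecialLinearGroup (Fin (n + 1)) L) *
      (Fintype.card L - 1) = ∏ i : Fin (n + 1), (Fintype.card L ^ (n + 1) - Fintype.card L ^ (i : ℕ)) := by
    intro L _ _
    classical
    rw [← Matrix.card_GL_field]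
    have hsurj : Function.Surjective (Matrix.GeneralLinearGroup.det : GL (Fin (n + 1)) L →* Lˣ) := by
      intro v
      refine ⟨Matrix.GeneralLinearGroup.mkOfDetNeZero
        (Matrix.diagonal (Function.update (1 : Fin (n + 1) → L) 0 (v : L))) ?_, Units.ext ?_⟩
      · rw [Matrix.det_diagonal, Finset.prod_update_of_mem (Finset.mem_univ _)]
        simp
      · simp only [Matrix.GeneralLinearGroup.val_det_apply]
        show (Matrix.diagonal (Function.update (1 : Fin (n + 1) → L) 0 (v : L))).det = _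
        rw [Matrix.det_diagonal, Finset.prod_update_of_mem (Finset.mem_univ _)]
        simp
    have h1 := (Matrix.GeneralLinearGroup.det : GL (Fin (n + 1)) L →* Lˣ).ker.card_mul_index
    rw [Subgroup.index_ker, MonoidHom.range_eq_top.2 hsurj, Subgroup.card_top,
      Nat.card_eq_fintype_card (α := Lˣ), Fintype.card_units] at h1
    rw [← h1]
    congr 1
    refine Nat.card_congr
      { toFun := fun A => ⟨Matrix.SpecialLinearGroup.toGL A, Units.ext A.det_coe⟩
        invFun := fun A => ⟨((A : GL (Fin (n + 1)) L) : Matrix (Fin (n + 1)) (Fin (n + 1)) L), by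
          have := congrArg Units.val A.2
          simpa using this⟩
        left_inv := fun A => rfl
        right_inv := fun A => Subtype.ext (Units.ext rfl) }
  have hF := hGL F
  have h0 := hGL F₀
  rw [hcard0] at h0
  rw [← φ.range.card_mul_index, hrange] at hF
  set q := Fintype.card F
  let o : ℕ → ℕ := fun m => ∑ i ∈ Finset.range k, (q₀ ^ m) ^ i
  have hfac : ∀ m, q ^ m - 1 = (q₀ ^ m - 1) * o m := fun m => by
    rw [hqk, ← pow_mul, mul_comm k m, pow_mul, mul_comm, geom_sum_mul_of_one_le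
      (Nat.one_le_pow _ _ (by omega))]
  let cs : Fin (n + 1) → ℕ := fun i => q₀ ^ ((k - 1) * (i : ℕ)) * o (n + 1 - i)
  have hterm : ∀ i : Fin (n + 1), q ^ (n + 1) - q ^ (i : ℕ) = (q₀ ^ (n + 1) - q₀ ^ (i : ℕ)) * cs i := by
    intro i
    have hi := i.2
    have e1 : q ^ (n + 1) - q ^ (i : ℕ) = q ^ (i : ℕ) * (q ^ (n + 1 - i) - 1) := by
      rw [Nat.mul_sub, mul_one, ← pow_add, Nat.add_sub_cancel' hi.le]
    have e2 : q₀ ^ (n + 1) - q₀ ^ (i : ℕ) = q₀ ^ (i : ℕ) * (q₀ ^ (n + 1 - i) - 1) := by
      rw [Nat.mul_sub, mul_one, ← pow_add, Nat.add_sub_cancel' hi.le]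
    rw [e1, e2, hfac, show q ^ (i : ℕ) = q₀ ^ (i : ℕ) * q₀ ^ ((k - 1) * (i : ℕ)) by
      rw [hqk, ← pow_mul, ← pow_add]
      congr 1
      rw [Nat.sub_mul, one_mul, Nat.add_sub_cancel' (Nat.le_mul_of_pos_left _ hk)]]
    show _ = _ * (q₀ ^ ((k - 1) * (i : ℕ)) * o (n + 1 - i))
    ring
  rw [Finset.prod_congr rfl fun i _ => hterm i, Finset.prod_mul_distrib, ← h0] at hF
  have hq1 : q - 1 = (q₀ - 1) * o 1 := by simpa using hfac 1
  rw [hq1] at hF
  have hpos : 0 < Nat.card (Matrix.SpecialLinearGroup (Fin (n + 1)) F₀) * (q₀ - 1) :=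
    Nat.mul_pos Nat.card_pos (by omega)
  have hidx : φ.range.index * o 1 = ∏ i, cs i :=
    Nat.eq_of_mul_eq_mul_left hpos (by rw [← hF]; ring)
  rw [Fin.prod_univ_castSucc] at hidx
  simp only [cs, Fin.val_last, Fin.val_castSucc, show n + 1 - n = 1 by omega] at hidx
  have ho1 : 0 < o 1 := Finset.sum_pos (fun i _ => by positivity) ⟨0, Finset.mem_range.2 hk⟩
  rw [← mul_assoc] at hidx
  rw [Nat.eq_of_mul_eq_mul_right ho1 hidx] at hdvd
  rcases hr.dvd_mul.1 hdvd with h | h
  · obtain ⟨i, -, hi⟩ := hr.prime.exists_mem_finset_dvd h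
    rcases hr.dvd_mul.1 hi with h' | h'
    · exact absurd (hr.dvd_of_dvd_pow h') hrq₀
    · exact ⟨n + 1 - i, by have := i.2; omega, by omega, h'⟩
  · exact absurd (hr.dvd_of_dvd_pow h) hrq₀

/-- A diagonalisable element whose eigenvalues are permuted by an involution twist descends. -/
theorem conj_of_involution {n : ℕ} [NeZero n] {F₀ : Subfield F} {σ : F →+* F}
    (hfix : ∀ a, a ∈ F₀ ↔ σ a = a) (hσσ : ∀ a, σ (σ a) = a) (hne : ∃ a, a ∉ F₀)
    (x : Matrix.SpecialLinearGroup (Fin n) F) (b : Basis (Fin n) F (Fin n → F)) (d : Fin n → F)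
    (hd : ∀ i, Matrix.toLin' (x : Matrix (Fin n) (Fin n) F) (b i) = d i • b i) {c : F} (hc : c ≠ 0)
    (π : Fin n → Fin n) (hπ : ∀ i, π (π i) = i) (hσd : ∀ i, σ (c * d i) = c * d (π i)) :
    ∃ P : Matrix.SpecialLinearGroup (Fin n) F, P⁻¹ * x * P ∈
      (Cfsg.Geo.subfieldSubgroup F₀ 1).comap
        (Matrix.SpecialLinearGroup.toGL : Matrix.SpecialLinearGroup (Fin n) F →* GL (Fin n) F) := by
  classical
  obtain ⟨θ, hθ⟩ := hne
  have hθσ : σ θ ≠ θ := fun h => hθ ((hfix θ).2 h)
  have hπeq : ∀ {l j : Fin n}, π l = j → l = π j := fun h => by rw [← h, hπ]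
  let A : Matrix (Fin n) (Fin n) F := Matrix.of fun l j =>
    if π l = l then (if j = l then 1 else 0)
    else if l < π l then (if j = l then 1 else 0) + θ * (if j = π l then 1 else 0)
    else (if j = π l then 1 else 0) + σ θ * (if j = l then 1 else 0)
  have hA : A.map σ = A.submatrix π id := by
    ext l j
    simp only [Matrix.map_apply, Matrix.submatrix_apply, id, A, Matrix.of_apply, hπ]
    by_cases h1 : π l = l
    · simp only [h1, if_true]
      split_ifs <;> simp
    · have h1' : ¬ l = π l := fun h => h1 h.symm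
      rw [if_neg h1, if_neg h1']
      rcases lt_or_ge l (π l) with h2 | h2
      · rw [if_pos h2, if_neg (not_lt.2 h2.le), map_add, map_mul, apply_ite σ, apply_ite σ, map_one, map_zero]
      · have h3 : π l < l := lt_of_le_of_ne h2 h1
        rw [if_neg (not_lt.2 h2), if_pos h3, map_add, map_mul, hσσ, apply_ite σ, apply_ite σ, map_one, map_zero]
  have hdetA : A.det ≠ 0 := by
    intro h0
    obtain ⟨u, hu0, hu⟩ := Matrix.exists_mulVec_eq_zero_iff.2 h0
    refine hu0 (funext fun l => ?_)
    have hrow : ∀ l, (A *ᵥ u) l = if π l = l then u l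
        else if l < π l then u l + θ * u (π l) else u (π l) + σ θ * u l := by
      intro l
      simp only [Matrix.mulVec, dotProduct, A, Matrix.of_apply]
      split_ifs <;> simp [add_mul, mul_assoc, ← Finset.mul_sum, Finset.sum_add_distrib]
    have e1 := congrFun hu l
    have e2 := congrFun hu (π l)
    rw [hrow, Pi.zero_apply] at e1 e2
    rw [hπ] at e2
    by_cases h1 : π l = l
    · rw [if_pos h1] at e1; exact e1
    · have h1' : ¬ l = π l := fun h => h1 h.symm
      rw [if_neg h1] at e1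
      rw [if_neg h1'] at e2
      rcases lt_or_ge l (π l) with h2 | h2
      · rw [if_pos h2] at e1
        rw [if_neg (not_lt.2 h2.le)] at e2
        have h4 : (σ θ - θ) * u (π l) = 0 := by linear_combination e2 - e1
        have h5 := (mul_eq_zero.1 h4).resolve_left (sub_ne_zero.2 hθσ)
        rw [h5, mul_zero, add_zero] at e1
        exact e1
      · have h3 : π l < l := lt_of_le_of_ne h2 h1
        rw [if_neg (not_lt.2 h2)] at e1
        rw [if_pos h3] at e2
        have h4 : (σ θ - θ) * u l = 0 := by linear_combination e1 - e2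
        exact (mul_eq_zero.1 h4).resolve_left (sub_ne_zero.2 hθσ)
  set D := Matrix.diagonal fun l => c * d l
  set M := A⁻¹ * (D * A) with hM
  have hAu : IsUnit A.det := isUnit_iff_ne_zero.2 hdetA
  have hAM : A * M = D * A := by rw [hM, Matrix.mul_nonsing_inv_cancel_left _ _ hAu]
  have hMσ : M.map σ = M := by
    have h1 : (A * M).map σ = (D * A).submatrix π id := by
      rw [hAM]
      ext l j
      simp only [Matrix.map_apply, Matrix.submatrix_apply, id, D, Matrix.diagonal_mul, map_mul]
      rw [show σ (A l j) = A (π l) j from congrFun (congrFun hA l) j, ← map_mul, hσd]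
    rw [Matrix.map_mul, hA, ← hAM] at h1
    have h2 : (A * M.map σ).submatrix π id = (A * M).submatrix π id := by
      rw [Matrix.submatrix_mul A (M.map σ) π id id Function.bijective_id, Matrix.submatrix_id_id]
      exact h1
    have h3 : A * M.map σ = A * M := by
      ext l j
      have := congrFun (congrFun h2 (π l)) j
      simpa [hπ] using this
    have h4 := congrArg (fun X => A⁻¹ * X) h3
    simpa [Matrix.nonsing_inv_mul_cancel_left _ _ hAu] using h4
  let v : Fin n → (Fin n → F) := fun j => ∑ l, A l j • b l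
  have hv : LinearIndependent F v := by
    rw [Fintype.linearIndependent_iff]
    intro u hu i
    have h1 : ∑ l, (A *ᵥ u) l • b l = 0 := by
      rw [← hu]
      simp only [v, Matrix.mulVec, dotProduct, Finset.smul_sum, Finset.sum_smul, smul_smul]
      rw [Finset.sum_comm]
      exact Finset.sum_congr rfl fun _ _ => Finset.sum_congr rfl fun _ _ => by rw [mul_comm]
    have h2 := Fintype.linearIndependent_iff.1 b.linearIndependent _ h1
    exact congrFun (Matrix.eq_zero_of_mulVec_eq_zero hdetA (funext h2)) i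
  haveI : Nonempty (Fin n) := ⟨0⟩
  let bv := basisOfLinearIndependentOfCardEqFinrank hv (by simp)
  have hbv : ∀ j, bv j = v j := fun j => by simp [bv]
  refine Agent.H97.exists_conj_subfield x bv hc (fun i j => ?_) fun μ _ => H97.dets_of_diagonal b _ d hd 0 μ
  have hval : c • Matrix.toLin' (x : Matrix (Fin n) (Fin n) F) (bv j) = ∑ m, M m j • bv m := by
    simp only [hbv, v, map_sum, map_smul, hd, Finset.smul_sum, smul_smul]
    rw [Finset.sum_comm]
    refine Finset.sum_congr rfl fun l _ => ?_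
    rw [← Finset.sum_smul]
    congr 1
    have h1 := congrFun (congrFun hAM l) j
    rw [Matrix.mul_apply, Matrix.diagonal_mul] at h1
    rw [show (∑ m, M m j * A l m) = ∑ m, A l m * M m j from Finset.sum_congr rfl fun m _ => mul_comm _ _, h1]
    ring
  rw [← Matrix.toLin'_apply, show c * bv.repr (Matrix.toLin' (x : Matrix (Fin n) (Fin n) F) (bv j)) i =
    bv.repr (c • Matrix.toLin' (x : Matrix (Fin n) (Fin n) F) (bv j)) i by simp, hval, bv.repr_sum_self]
  exact (hfix _).2 (congrFun (congrFun hMσ i) j)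

/-- A symmetric family of exponents has a pairing involution. -/
theorem exists_pairing {n r : ℕ} [NeZero r] (e : Fin n → ZMod r) (t : ZMod r)
    (hsym : ∀ a, (Finset.univ.filter fun i => e i = t + t - a).card = (Finset.univ.filter fun i => e i = a).card) :
    ∃ π : Fin n → Fin n, (∀ i, π (π i) = i) ∧ ∀ i, e (π i) = t + t - e i := by
  classical
  let m : ZMod r → ℕ := fun a => (Finset.univ.filter fun i => e i = a).card
  have hcard : ∀ a, Fintype.card {i // e i = a} = m a := fun a => Fintype.card_subtype _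
  let φ : ∀ a, {i // e i = a} ≃ Fin (m a) := fun a => Fintype.equivFinOfCardEq (hcard a)
  have hm : ∀ a, m a = m (t + t - a) := fun a => (hsym a).symm
  let π : Fin n → Fin n := fun i => ((φ (t + t - e i)).symm (Fin.cast (hm (e i)) (φ (e i) ⟨i, rfl⟩))).1
  have hπe : ∀ i, e (π i) = t + t - e i := fun i =>
    ((φ (t + t - e i)).symm (Fin.cast (hm (e i)) (φ (e i) ⟨i, rfl⟩))).2
  have hval : ∀ {a a' : ZMod r} (u : Fin (m a)) (u' : Fin (m a')), a = a' → (u : ℕ) = (u' : ℕ) →
      ((φ a).symm u).1 = ((φ a').symm u').1 := by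
    intro a a' u u' h hv
    subst h
    rw [Fin.ext hv]
  have hφval : ∀ {a a' : ZMod r} (x : {i // e i = a}) (x' : {i // e i = a'}), a = a' → x.1 = x'.1 →
      ((φ a x : Fin (m a)) : ℕ) = ((φ a' x' : Fin (m a')) : ℕ) := by
    intro a a' x x' h hx
    subst h
    rw [Subtype.ext hx]
  refine ⟨π, fun i => ?_, hπe⟩
  have h1 : ((φ (e (π i)) ⟨π i, rfl⟩ : Fin _) : ℕ) = ((φ (e i) ⟨i, rfl⟩ : Fin _) : ℕ) := by
    rw [hφval (⟨π i, rfl⟩ : {j // e j = e (π i)}) ((φ (t + t - e i)).symm (Fin.cast (hm (e i)) (φ (e i) ⟨i, rfl⟩)))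
      (hπe i) rfl, Equiv.apply_symm_apply, Fin.val_cast]
  show ((φ (t + t - e (π i))).symm (Fin.cast (hm _) (φ (e (π i)) ⟨π i, rfl⟩))).1 = i
  rw [hval _ (φ (e i) ⟨i, rfl⟩) (by rw [hπe]; abel) (by rw [Fin.val_cast]; exact h1), Equiv.symm_apply_apply]

/-- Zero-sum multisets of three residues modulo three are symmetric. -/
theorem symm_three : ∀ e : Fin 3 → ZMod 3, e 0 + e 1 + e 2 = 0 → ∃ t : ZMod 3, ∀ a,
    (Finset.univ.filter fun i => e i = t + t - a).card = (Finset.univ.filter fun i => e i = a).card := by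
  decide +kernel

/-- Zero-sum multisets of five residues modulo five are symmetric. -/
theorem symm_five : ∀ e : Fin 5 → ZMod 5, e 0 + e 1 + e 2 + e 3 + e 4 = 0 → ∃ t : ZMod 5, ∀ a,
    (Finset.univ.filter fun i => e i = t + t - a).card = (Finset.univ.filter fun i => e i = a).card := by
  decide +kernel

end Cfsg.Agent.H19.SubF
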