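import Cfsg.Agent.H97.Semisimple

/-! Operators with `x ^ r = 1` over a finite field: cyclic pieces and bases. -/

set_option autoImplicit false
set_option linter.unusedSectionVars false
set_option linter.style.haveILetI false

namespace Cfsg.Agent.H19.SubF

open Module Polynomial

universe u v

variable {F : Type u} [Field F] [Finite F] {r : ℕ} [Fact r.Prime]

/-- An operator of order dividing `r` splits off a piece isomorphic to multiplication by a root. -/
theorem exists_piece {V : Type v} [AddCommGroup V] [Module F V] [FiniteDimensional F V] (hr : (r : F) ≠ 0)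
    (y : End F V) (hy : y ^ r = 1) (hV : 0 < finrank F V) :
    ∃ (g : F[X]) (Q : Submodule F V) (hQ : ∀ v ∈ Q, y v ∈ Q) (Φ : (AdjoinRoot g × Q) ≃ₗ[F] V),
      Irreducible g ∧ g.Monic ∧ g ∣ X ^ r - 1 ∧
        ∀ p, y (Φ p) = Φ (AdjoinRoot.root g * p.1, y.restrict hQ p.2) := by
  classical
  haveI : Nontrivial V := Module.finrank_pos_iff.1 hV
  have hint : IsIntegral F y := Algebra.IsIntegral.isIntegral y
  set m := minpoly F y with hm
  obtain ⟨g, hgm, hgi, hgd⟩ : ∃ g : F[X], g.Monic ∧ Irreducible g ∧ g ∣ m := by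
    obtain ⟨g, hg, hgd⟩ := WfDvdMonoid.exists_irreducible_factor (minpoly.not_isUnit F y) (minpoly.ne_zero hint)
    exact ⟨g * C g.leadingCoeff⁻¹, monic_mul_leadingCoeff_inv hg.ne_zero,
      (irreducible_mul_isUnit (isUnit_C.2 (isUnit_iff_ne_zero.2 (inv_ne_zero (leadingCoeff_ne_zero.2 hg.ne_zero))))).2 hg,
      (IsUnit.mul_right_dvd (isUnit_C.2 (isUnit_iff_ne_zero.2 (inv_ne_zero (leadingCoeff_ne_zero.2 hg.ne_zero))))).2 hgd⟩
  have hgr : g ∣ X ^ r - 1 := hgd.trans (minpoly.dvd F y (by simp [hy]))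
  haveI : Fact (Irreducible g) := ⟨hgi⟩
  set E := LinearMap.ker (aeval y g) with hE
  have hne : E ≠ ⊥ := by
    intro hbot
    obtain ⟨h, hh⟩ := hgd
    have hinj : Function.Injective (aeval y g) := LinearMap.ker_eq_bot.1 hbot
    have h0 : aeval y h = 0 := LinearMap.ext fun v => hinj (by
      have h1 : aeval y g * aeval y h = 0 := by rw [← map_mul, ← hh]; exact minpoly.aeval F y
      rw [LinearMap.zero_apply, map_zero, ← Module.End.mul_apply, h1, LinearMap.zero_apply])
    have hh0 : h ≠ 0 := fun h1 => minpoly.ne_zero hint (show m = 0 by rw [hh, h1, mul_zero])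
    have hd := natDegree_le_of_dvd (minpoly.dvd F y h0) hh0
    rw [show (minpoly F y).natDegree = g.natDegree + h.natDegree by
      rw [← hm, hh, natDegree_mul hgi.ne_zero hh0]] at hd
    have := hgi.natDegree_pos
    omega
  obtain ⟨v, hv, hv0⟩ := Submodule.exists_mem_ne_zero_of_ne_bot hne
  have hcomm : Commute y (aeval y g) := by
    have h1 := (Commute.all (X : F[X]) g).map (aeval y)
    rwa [aeval_X] at h1
  have hEinv : ∀ w ∈ E, y w ∈ E := fun w hw => by
    rw [hE, LinearMap.mem_ker, ← Module.End.mul_apply, ← hcomm.eq, Module.End.mul_apply,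
      LinearMap.mem_ker.1 hw, map_zero]
  set yE : End F E := y.restrict hEinv with hyE
  have hyEk : ∀ (p : F[X]) (w : E), ((aeval yE p) w : V) = aeval y p (w : V) := by
    intro p
    induction p using Polynomial.induction_on' with
    | add p p' hp hp' => intro w; simp [hp w, hp' w]
    | monomial k a =>
      intro w
      simp only [aeval_monomial, ← Algebra.smul_def, LinearMap.smul_apply, Submodule.coe_smul]
      congr 1
      induction k generalizing w with
      | zero => rfl
      | succ k ih => rw [pow_succ, pow_succ, Module.End.mul_apply, Module.End.mul_apply, ih]; rfl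
  have hgE : aeval yE g = 0 := LinearMap.ext fun w => Subtype.ext (by
    rw [hyEk]; exact LinearMap.mem_ker.1 w.2)
  let ψ : AdjoinRoot g →ₐ[F] End F E := Ideal.Quotient.liftₐ (Ideal.span {g}) (aeval yE) (fun a ha => by
    obtain ⟨c, rfl⟩ := Ideal.mem_span_singleton'.1 ha
    rw [map_mul, hgE, mul_zero])
  have hψ : ψ (AdjoinRoot.root g) = yE := aeval_X yE
  let L : AdjoinRoot g →ₗ[F] V := E.subtype ∘ₗ (LinearMap.applyₗ (⟨v, hv⟩ : E)) ∘ₗ ψ.toLinearMap
  have hL : ∀ a, L a = ((ψ a) ⟨v, hv⟩ : V) := fun a => rfl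
  have hLy : ∀ a, y (L a) = L (AdjoinRoot.root g * a) := fun a => by
    rw [hL, hL, map_mul, hψ, Module.End.mul_apply]; rfl
  have hLinj : Function.Injective L := by
    rw [← LinearMap.ker_eq_bot, Submodule.eq_bot_iff]
    intro a ha
    by_contra ha0
    refine hv0 ?_
    have h1 : (ψ (a⁻¹ * a)) ⟨v, hv⟩ = 0 := by
      rw [map_mul, Module.End.mul_apply, show (ψ a) ⟨v, hv⟩ = 0 from Subtype.ext (LinearMap.mem_ker.1 ha), map_zero]
    rw [inv_mul_cancel₀ ha0, map_one, Module.End.one_apply] at h1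
    exact congrArg Subtype.val h1
  have hWinv : (LinearMap.range L).map y ≤ LinearMap.range L := by
    rintro _ ⟨_, ⟨a, rfl⟩, rfl⟩; exact ⟨_, (hLy a).symm⟩
  obtain ⟨Q, hQ, hsum, hdis⟩ := H97.exists_inv_compl hr y hy ⊤ (LinearMap.range L) le_top hWinv le_top
  have hQ' : ∀ w ∈ Q, y w ∈ Q := fun w hw => hQ ⟨w, hw, rfl⟩
  let Φ : (AdjoinRoot g × Q) ≃ₗ[F] V :=
    ((LinearEquiv.ofInjective L hLinj).prodCongr (LinearEquiv.refl F Q)).trans
      (Submodule.prodEquivOfIsCompl _ _ ⟨hdis, codisjoint_iff.2 hsum⟩)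
  have hΦ : ∀ p, Φ p = L p.1 + (p.2 : V) := fun p => by simp [Φ]
  refine ⟨g, Q, hQ', Φ, hgi, hgm, hgr, fun p => ?_⟩
  rw [hΦ, hΦ, map_add, hLy]
  rfl

/-- Bases in which such an operator is built from blocks with entries of a given kind. -/
theorem exists_basis (hr : (r : F) ≠ 0) (A : Bool → F → Prop) (h0 : A false 0)
    (hg : ∀ (g : F[X]) (hgi : Irreducible g), g.Monic → g ∣ X ^ r - 1 →
      ∀ a b, A (decide (a = b)) (Algebra.leftMulMatrix (AdjoinRoot.powerBasis hgi.ne_zero).basis
        (AdjoinRoot.root g) a b)) :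
    ∀ (N : ℕ) (V : Type v) [AddCommGroup V] [Module F V] [FiniteDimensional F V] (y : End F V),
      finrank F V ≤ N → y ^ r = 1 →
      ∃ (m : ℕ) (b : Basis (Fin m) F V), ∀ i j, A (decide (i = j)) (b.repr (y (b j)) i) := by
  intro N
  induction N with
  | zero =>
    intro V _ _ _ y hN _
    haveI : Subsingleton V := Module.finrank_zero_iff.1 (Nat.le_zero.1 hN)
    exact ⟨0, Basis.empty V, fun i => i.elim0⟩
  | succ N ih =>
    intro V _ _ _ y hN hy
    rcases Nat.eq_zero_or_pos (finrank F V) with hV | hV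
    · exact ih V y (by omega) hy
    obtain ⟨g, Q, hQ, Φ, hgi, hgm, hgr, hΦ⟩ := exists_piece hr y hy hV
    haveI : Fact (Irreducible g) := ⟨hgi⟩
    set pb := AdjoinRoot.powerBasis hgi.ne_zero with hpb
    haveI : FiniteDimensional F (AdjoinRoot g) := pb.finite
    have hdim := Φ.finrank_eq
    rw [Module.finrank_prod] at hdim
    have hpos : 0 < finrank F (AdjoinRoot g) := Module.finrank_pos
    have hk : ∀ (k : ℕ) (w : Q), (((y.restrict hQ) ^ k) w : V) = (y ^ k) w := by
      intro k
      induction k with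
      | zero => intro w; rfl
      | succ k ihk => intro w; rw [pow_succ, pow_succ, Module.End.mul_apply, ihk]; rfl
    obtain ⟨m, bQ, hbQ⟩ := ih Q (y.restrict hQ) (by omega)
      (LinearMap.ext fun w => Subtype.ext (by rw [hk, hy]; rfl))
    let B := (pb.basis.prod bQ).map Φ
    have hB : ∀ i j, A (decide (i = j)) (B.repr (y (B j)) i) := by
      intro i j
      have h1 : y (B j) = Φ (AdjoinRoot.root g * ((pb.basis.prod bQ) j).1,
          y.restrict hQ ((pb.basis.prod bQ) j).2) := by rw [Basis.map_apply, hΦ]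
      rw [h1, Basis.map_repr, LinearEquiv.trans_apply, LinearEquiv.symm_apply_apply]
      rcases j with j | j <;> rcases i with i | i
      · have := hg g hgi hgm hgr i j
        rw [Algebra.leftMulMatrix_eq_repr_mul] at this
        simpa [decide_eq_decide.2 (Sum.inl_injective.eq_iff (a := i) (b := j)), hpb] using this
      · simpa using h0
      · simpa using h0
      · simpa [decide_eq_decide.2 (Sum.inr_injective.eq_iff (a := i) (b := j))] using hbQ i j
    let e : Fin pb.dim ⊕ Fin m ≃ Fin (pb.dim + m) := finSumFinEquiv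
    refine ⟨pb.dim + m, B.reindex e, fun i j => ?_⟩
    rw [Basis.reindex_apply, Basis.repr_reindex_apply]
    rw [show decide (i = j) = decide (e.symm i = e.symm j) from decide_eq_decide.2 e.symm.injective.eq_iff.symm]
    exact hB _ _

/-- Centralising operators of every determinant. -/
theorem exists_det {n : ℕ} (hn : 0 < n) (hr : (r : F) ≠ 0) (y : End F (Fin n → F)) (hy : y ^ r = 1) (μ : F) :
    ∃ u : End F (Fin n → F), y * u = u * y ∧ LinearMap.det u = μ := by
  classical
  obtain ⟨g, Q, hQ, Φ, hgi, -, -, hΦ⟩ := exists_piece hr y hy (by rwa [Module.finrank_fin_fun])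
  haveI : Fact (Irreducible g) := ⟨hgi⟩
  haveI : FiniteDimensional F (AdjoinRoot g) := (AdjoinRoot.powerBasis hgi.ne_zero).finite
  haveI : Finite (AdjoinRoot g) := Module.finite_of_finite F
  obtain ⟨κ, hκ⟩ := FiniteField.norm_surjective F (AdjoinRoot g) μ
  refine ⟨Φ.toLinearMap ∘ₗ LinearMap.prodMap (Algebra.lmul F (AdjoinRoot g) κ) LinearMap.id ∘ₗ Φ.symm.toLinearMap,
    LinearMap.ext fun w => ?_, ?_⟩
  · obtain ⟨p, rfl⟩ := Φ.surjective w
    simp only [Module.End.mul_apply, LinearMap.comp_apply, LinearEquiv.coe_coe, LinearEquiv.symm_apply_apply, hΦ,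
      LinearMap.prodMap_apply, Algebra.coe_lmul_eq_mul, LinearMap.mul_apply', LinearMap.id_apply]
    rw [mul_left_comm]
  · rw [LinearMap.det_conj, LinearMap.det_prodMap, ← Algebra.norm_apply, hκ, LinearMap.det_id, mul_one]

end Cfsg.Agent.H19.SubF
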