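import Cfsg.Agent.H19.SubfieldPieces
import Cfsg.Agent.H97.SubfieldConj
import Cfsg.Agent.H97.LinearCriteria

/-! Conjugation into subfield groups and the Frobenius twist. -/

set_option autoImplicit false
set_option linter.unusedSectionVars false
set_option linter.style.haveILetI false

namespace Cfsg.Agent.H19.SubF

open Module Polynomial
open scoped Matrix

universe u

variable {F : Type u} [Field F] [Fintype F] {q₀ : ℕ}

/-- The Frobenius map of a subfield. -/
theorem exists_frob (F₀ : Subfield F) (hF₀ : Nat.card F₀ = q₀) :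
    ∃ σ : F →+* F, (∀ a, σ a = a ^ q₀) ∧ ∀ a, a ∈ F₀ ↔ σ a = a := by
  classical
  haveI : Fintype F₀ := Fintype.ofFinite _
  haveI : Fact (ringChar F).Prime := ⟨CharP.char_is_prime F _⟩
  haveI : CharP F₀ (ringChar F) :=
    (RingHom.charP_iff_charP (F₀.subtype : F₀ →+* F) (ringChar F)).2 inferInstance
  obtain ⟨e, -, he⟩ := FiniteField.card F₀ (ringChar F)
  rw [← Nat.card_eq_fintype_card, hF₀] at he
  let σ := iterateFrobenius F (ringChar F) (e : ℕ)
  have hσ : ∀ a, σ a = a ^ q₀ := fun a => by rw [he]; rfl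
  refine ⟨σ, hσ, fun a => ⟨fun ha => ?_, fun ha => ?_⟩⟩
  · have h1 := FiniteField.pow_card (⟨a, ha⟩ : F₀)
    rw [← Nat.card_eq_fintype_card, hF₀] at h1
    rw [hσ]
    exact congrArg Subtype.val h1
  · by_contra hna
    have hq1 : 1 < q₀ := by rw [← hF₀]; exact Finite.one_lt_card
    have hne : (X ^ q₀ - X : F[X]) ≠ 0 := FiniteField.X_pow_card_sub_X_ne_zero F hq1
    let S : Finset F := insert a (Finset.univ.map (Function.Embedding.subtype (· ∈ F₀)))
    have hS : S ⊆ (X ^ q₀ - X : F[X]).roots.toFinset := by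
      intro b hb
      rw [Multiset.mem_toFinset, mem_roots hne]
      simp only [IsRoot, eval_sub, eval_pow, eval_X, sub_eq_zero]
      rcases Finset.mem_insert.1 hb with rfl | hb
      · rw [← hσ]; exact ha
      · obtain ⟨⟨c, hc⟩, -, rfl⟩ := Finset.mem_map.1 hb
        have h1 := FiniteField.pow_card (⟨c, hc⟩ : F₀)
        rw [← Nat.card_eq_fintype_card, hF₀] at h1
        exact congrArg Subtype.val h1
    have h2 : S.card = q₀ + 1 := by
      rw [Finset.card_insert_of_notMem, Finset.card_map, Finset.card_univ, ← Nat.card_eq_fintype_card, hF₀]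
      intro h3
      obtain ⟨⟨c, hc⟩, -, rfl⟩ := Finset.mem_map.1 h3
      exact hna hc
    have h3 := (Finset.card_le_card hS).trans ((Multiset.toFinset_card_le _).trans (card_roots' _))
    rw [h2, FiniteField.X_pow_card_sub_X_natDegree_eq F hq1] at h3
    omega

/-- An element conjugate into the subfield group is similar to a multiple of its twist. -/
theorem twist_of_conj {n : ℕ} [NeZero n] {F₀ : Subfield F} {σ : F →+* F} (hfix : ∀ a, a ∈ F₀ ↔ σ a = a)
    (x P : Matrix.SpecialLinearGroup (Fin n) F)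
    (hP : P⁻¹ * x * P ∈ (Cfsg.Geo.subfieldSubgroup F₀ 1).comap
      (Matrix.SpecialLinearGroup.toGL : Matrix.SpecialLinearGroup (Fin n) F →* GL (Fin n) F)) :
    ∃ (l : F) (Q : GL (Fin n) F), l ≠ 0 ∧ (x : Matrix (Fin n) (Fin n) F).map σ =
      l • ((Q : Matrix (Fin n) (Fin n) F) * (x : Matrix (Fin n) (Fin n) F) * (Q⁻¹ : GL (Fin n) F)) := by
  obtain ⟨c, hc, hy⟩ := (H97.comap_subfield_mem _).1 hP
  set Y := P⁻¹ * x * P with hY
  set M := Matrix.SpecialLinearGroup.map (n := Fin n) σ
  have hcs : σ c ≠ 0 := by rwa [ne_eq, map_eq_zero]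
  have hMY : (M Y : Matrix (Fin n) (Fin n) F) = (c * (σ c)⁻¹) • (Y : Matrix (Fin n) (Fin n) F) := by
    ext a b
    show σ ((Y : Matrix (Fin n) (Fin n) F) a b) = _
    have h1 := (hfix _).1 (hy a b)
    rw [map_mul] at h1
    rw [Matrix.smul_apply, smul_eq_mul, mul_assoc, mul_left_comm, ← h1, inv_mul_cancel_left₀ hcs]
  refine ⟨c * (σ c)⁻¹, Matrix.SpecialLinearGroup.toGL (M P * P⁻¹), mul_ne_zero hc (inv_ne_zero hcs), ?_⟩
  set g := M P * P⁻¹ with hg
  have e2 : M x = M P * M Y * (M P)⁻¹ := by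
    rw [← map_inv M P, ← map_mul, ← map_mul, hY]
    congr 1
    group
  have e3 : g * x * g⁻¹ = M P * Y * (M P)⁻¹ := by rw [hg, hY]; group
  show (M x : Matrix (Fin n) (Fin n) F) = _
  rw [e2, Matrix.SpecialLinearGroup.coe_mul, Matrix.SpecialLinearGroup.coe_mul, hMY, mul_smul_comm, smul_mul_assoc,
    ← Matrix.SpecialLinearGroup.coe_mul, ← Matrix.SpecialLinearGroup.coe_mul, ← e3, Matrix.SpecialLinearGroup.coe_mul,
    Matrix.SpecialLinearGroup.coe_mul, ← map_inv (Matrix.SpecialLinearGroup.toGL) g]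
  rfl

/-- A diagonal element conjugate into the subfield group has twist-invariant exponents. -/
theorem exps_of_conj {n r : ℕ} [NeZero n] [Fact r.Prime] {F₀ : Subfield F} {σ : F →+* F}
    (hσ : ∀ a, σ a = a ^ q₀) (hfix : ∀ a, a ∈ F₀ ↔ σ a = a) {ζ w : F} (hζ : IsPrimitiveRoot ζ r) (hw : w ≠ 0)
    (e : Fin n → ZMod r) (x P : Matrix.SpecialLinearGroup (Fin n) F)
    (hx : (x : Matrix (Fin n) (Fin n) F) = w • Matrix.diagonal fun i => ζ ^ (e i).val)
    (hP : P⁻¹ * x * P ∈ (Cfsg.Geo.subfieldSubgroup F₀ 1).comap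
      (Matrix.SpecialLinearGroup.toGL : Matrix.SpecialLinearGroup (Fin n) F →* GL (Fin n) F)) :
    ∃ b : ZMod r, Finset.univ.val.map (fun i => (q₀ : ZMod r) * e i) = Finset.univ.val.map (fun i => e i + b) := by
  classical
  haveI : NeZero r := ⟨(Fact.out : r.Prime).ne_zero⟩
  have hred : ∀ t : ℕ, ζ ^ t = ζ ^ ((t : ZMod r)).val := fun t => by
    rw [ZMod.val_natCast, hζ.eq_orderOf, pow_mod_orderOf]
  set d := fun i => ζ ^ (e i).val with hd
  have hdr : ∀ i, d i ^ r = 1 := fun i => by
    simp only [hd]; rw [← pow_mul, mul_comm, pow_mul, hζ.pow_eq_one, one_pow]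
  obtain ⟨l, Q, hl, hQ⟩ := twist_of_conj hfix x P hP
  rw [hx, Matrix.mul_smul, Matrix.smul_mul, smul_smul] at hQ
  have hσw : σ w ≠ 0 := by rwa [ne_eq, map_eq_zero]
  have hL : (w • Matrix.diagonal d).map σ = σ w • Matrix.diagonal (fun i => σ (d i)) := by
    ext a b
    by_cases hab : a = b
    · subst hab; simp
    · simp [hab]
  rw [hL] at hQ
  set l' := (σ w)⁻¹ * (l * w)
  have hQ' : Matrix.diagonal (fun i => σ (d i)) =
      (Q : Matrix (Fin n) (Fin n) F) * Matrix.diagonal (fun i => l' * d i) * (Q⁻¹ : GL (Fin n) F) := by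
    have h1 := congrArg (fun M => (σ w)⁻¹ • M) hQ
    simp only [smul_smul, inv_mul_cancel₀ hσw, one_smul] at h1
    rw [h1, show Matrix.diagonal (fun i => l' * d i) = l' • Matrix.diagonal d from
      (Matrix.diagonal_smul l' d), Matrix.mul_smul, Matrix.smul_mul]
  have hcp := congrArg Matrix.charpoly hQ'
  rw [Matrix.coe_units_inv, Matrix.charpoly_units_conj, Matrix.charpoly_diagonal, Matrix.charpoly_diagonal] at hcp
  have hroots : Finset.univ.val.map (fun i => σ (d i)) = Finset.univ.val.map (fun i => l' * d i) := by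
    have h1 : ∀ f : Fin n → F, (∏ i, (X - C (f i))).roots = Finset.univ.val.map f := fun f => by
      rw [Finset.prod_eq_multiset_prod, ← roots_multiset_prod_X_sub_C (Finset.univ.val.map f), Multiset.map_map]
      rfl
    rw [← h1, ← h1, hcp]
  obtain ⟨i₀, -, hi₀⟩ := Multiset.mem_map.1 (hroots ▸ Multiset.mem_map.2 ⟨(0 : Fin n), Finset.mem_def.1 (Finset.mem_univ (0 : Fin n)), rfl⟩ :
    σ (d 0) ∈ Finset.univ.val.map (fun i => l' * d i))
  have hl'r : l' ^ r = 1 := by
    have h1 := congrArg (· ^ r) hi₀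
    simp only [mul_pow, hdr, mul_one, ← map_pow, map_one] at h1
    exact h1
  obtain ⟨b, hb, hbl⟩ := hζ.eq_pow_of_pow_eq_one hl'r
  refine ⟨(b : ZMod r), Multiset.map_injective (f := fun a : ZMod r => ζ ^ a.val) (fun a c hac =>
    ZMod.val_injective r (hζ.pow_inj (ZMod.val_lt a) (ZMod.val_lt c) hac)) ?_⟩
  rw [Multiset.map_map, Multiset.map_map]
  refine Eq.trans (Eq.trans ?_ hroots) ?_
  · refine Multiset.map_congr rfl fun i _ => ?_
    simp only [Function.comp_apply, hσ, hd]
    rw [← pow_mul, hred ((e i).val * q₀), Nat.cast_mul, ZMod.natCast_val, ZMod.cast_id, mul_comm]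
  · refine Multiset.map_congr rfl fun i _ => ?_
    simp only [Function.comp_apply, hd, ← hbl]
    rw [← pow_add, hred (b + (e i).val), Nat.cast_add, ZMod.natCast_val, ZMod.cast_id, add_comm]

/-- A block element separating the twist. -/
theorem exists_block_witness {n r : ℕ} [NeZero n] [Fact r.Prime] {F₀ : Subfield F} {σ : F →+* F}
    (hF₀ : Nat.card F₀ = q₀) (hσ : ∀ a, σ a = a ^ q₀) (hfix : ∀ a, a ∈ F₀ ↔ σ a = a) (hr : (r : F) ≠ 0)
    (hi : 2 ≤ orderOf (Nat.card F : ZMod r)) (hin : orderOf (Nat.card F : ZMod r) ≤ n)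
    (hq0 : ∀ m, (Nat.card F : ZMod r) ^ m ≠ (q₀ : ZMod r)) :
    ∃ x : Matrix.SpecialLinearGroup (Fin n) F,
      ((x ^ r : Matrix.SpecialLinearGroup (Fin n) F) : Matrix (Fin n) (Fin n) F) = (1 : F) • 1 ∧
      (∀ z : F, (x : Matrix (Fin n) (Fin n) F) ≠ z • 1) ∧
      ¬ ∃ P : Matrix.SpecialLinearGroup (Fin n) F, P⁻¹ * x * P ∈ (Cfsg.Geo.subfieldSubgroup F₀ 1).comap
        (Matrix.SpecialLinearGroup.toGL : Matrix.SpecialLinearGroup (Fin n) F →* GL (Fin n) F) := by
  classical
  have hrp : r.Prime := Fact.out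
  haveI : NeZero (r : F) := ⟨hr⟩
  set i := orderOf (Nat.card F : ZMod r) with hidef
  obtain ⟨g, hgm, hgi, hgd⟩ : ∃ g : F[X], g.Monic ∧ Irreducible g ∧ g ∣ cyclotomic r F := by
    have hnu : ¬ IsUnit (cyclotomic r F) := fun hu => by
      have := natDegree_eq_zero_of_isUnit hu
      rw [natDegree_cyclotomic, Nat.totient_prime hrp] at this
      have := hrp.two_le
      omega
    obtain ⟨g, hg, hgd⟩ := WfDvdMonoid.exists_irreducible_factor hnu (cyclotomic_ne_zero r F)
    have hu : IsUnit (C g.leadingCoeff⁻¹) :=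
      isUnit_C.2 (isUnit_iff_ne_zero.2 (inv_ne_zero (leadingCoeff_ne_zero.2 hg.ne_zero)))
    exact ⟨g * C g.leadingCoeff⁻¹, monic_mul_leadingCoeff_inv hg.ne_zero, (irreducible_mul_isUnit hu).2 hg,
      hu.mul_right_dvd.2 hgd⟩
  haveI : Fact (Irreducible g) := ⟨hgi⟩
  set pb := AdjoinRoot.powerBasis hgi.ne_zero
  haveI : FiniteDimensional F (AdjoinRoot g) := pb.finite
  haveI : Finite (AdjoinRoot g) := Module.finite_of_finite F
  haveI : Fintype (AdjoinRoot g) := Fintype.ofFinite _
  set ρ := AdjoinRoot.root g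
  have hρ : IsPrimitiveRoot ρ r := by
    haveI : NeZero (r : AdjoinRoot g) := ⟨fun h => hr ((algebraMap F (AdjoinRoot g)).injective (by simpa using h))⟩
    rw [← isRoot_cyclotomic_iff, ← map_cyclotomic r (algebraMap F (AdjoinRoot g)), IsRoot, eval_map]
    obtain ⟨c, hc⟩ := hgd
    rw [hc, eval₂_mul, AdjoinRoot.algebraMap_eq, AdjoinRoot.eval₂_root, zero_mul]
  have hg0 : aeval ρ g = 0 := by rw [aeval_def, AdjoinRoot.algebraMap_eq, AdjoinRoot.eval₂_root]
  have hcardK : Nat.card (AdjoinRoot g) = Nat.card F ^ g.natDegree := by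
    rw [Module.natCard_eq_pow_finrank (K := F) (V := AdjoinRoot g), pb.finrank, AdjoinRoot.powerBasis_dim]
  have hrootmod : ∀ s t : ℕ, ρ ^ s = ρ ^ t → (s : ZMod r) = t := fun s t hst => by
    rw [(ZMod.natCast_eq_natCast_iff' _ _ _)]
    refine hρ.pow_inj (Nat.mod_lt _ hrp.pos) (Nat.mod_lt _ hrp.pos) ?_
    rw [hρ.eq_orderOf, pow_mod_orderOf, pow_mod_orderOf, hst]
  -- the degree is the multiplicative order
  have hdeg : g.natDegree = i := by
    refine Nat.dvd_antisymm ?_ ?_
    · refine hgi.natDegree_dvd_of_dvd_X_pow_card_pow_sub_X ?_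
      refine (minpoly.eq_of_irreducible_of_monic hgi hg0 hgm).symm ▸ minpoly.dvd F ρ ?_
      rw [map_sub, map_pow, aeval_X, sub_eq_zero]
      have h1 : ((Nat.card F ^ i : ℕ) : ZMod r) = ((1 : ℕ) : ZMod r) := by
        rw [Nat.cast_pow, Nat.cast_one]; exact pow_orderOf_eq_one _
      rw [(ZMod.natCast_eq_natCast_iff' _ _ _)] at h1
      rw [hρ.eq_orderOf] at h1
      conv_rhs => rw [← pow_one ρ]
      rw [← pow_mod_orderOf, h1, pow_mod_orderOf]
    · refine orderOf_dvd_of_pow_eq_one ?_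
      have h1 := hrootmod (Nat.card F ^ g.natDegree) 1 (by
        rw [pow_one, ← hcardK, Nat.card_eq_fintype_card, FiniteField.pow_card])
      simpa using h1
  -- the twist of the factor is different
  obtain ⟨τ, hτ, hτb⟩ : ∃ τ : F[X] →+* F[X], τ g = g.map σ ∧ Function.Bijective τ :=
    ⟨mapRingHom σ, rfl,
      (Polynomial.mapEquiv (RingEquiv.ofBijective σ (Finite.injective_iff_bijective.1 σ.injective))).bijective⟩
  have hgσi : Irreducible (g.map σ) := by
    rw [← hτ]; exact (MulEquiv.irreducible_iff (RingEquiv.ofBijective τ hτb)).2 hgi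
  have hp2 : ∀ (K : Type u) [Field K] [Algebra F K] (a : K) (P : F[X]) (s : K →+* K),
      (∀ c, s (algebraMap F K c) = algebraMap F K (σ c)) → aeval a P = 0 → aeval (s a) (P.map σ) = 0 := by
    intro K _ _ a P s hs hP
    have hcomp : (algebraMap F K).comp σ = s.comp (algebraMap F K) := RingHom.ext fun c => (hs c).symm
    rw [aeval_def, eval₂_map, hcomp, ← hom_eval₂, ← aeval_def, hP, map_zero]
  have hne : g.map σ ≠ g := by
    intro heq
    haveI : Fact (ringChar F).Prime := ⟨CharP.char_is_prime F _⟩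
    haveI : CharP (AdjoinRoot g) (ringChar F) := charP_of_injective_algebraMap (algebraMap F _).injective _
    -- the qth powers of the root exhaust the roots
    set R := ((g.map (algebraMap F (AdjoinRoot g))).roots).toFinset
    have hcon : ∀ m : ℕ, aeval (ρ ^ Nat.card F ^ m) g = 0 := by
      intro m
      induction m with
      | zero => rwa [pow_zero, pow_one]
      | succ m ih =>
        rw [pow_succ, pow_mul, ← expand_aeval, Nat.card_eq_fintype_card, FiniteField.expand_card, map_pow,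
          ← Nat.card_eq_fintype_card, ih, zero_pow Nat.card_pos.ne']
    have hmem : ∀ a, a ∈ R ↔ aeval a g = 0 := fun a => by
      rw [Multiset.mem_toFinset, mem_roots (map_ne_zero hgi.ne_zero), IsRoot, eval_map, ← aeval_def]
    have hRi : R = (Finset.range i).image fun m => ρ ^ Nat.card F ^ m := by
      refine (Finset.eq_of_subset_of_card_le ?_ ?_).symm
      · intro a ha
        obtain ⟨m, -, rfl⟩ := Finset.mem_image.1 ha
        exact (hmem _).2 (hcon m)
      · rw [Finset.card_image_of_injOn, Finset.card_range, ← hdeg]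
        · exact (Multiset.toFinset_card_le _).trans ((card_roots' _).trans natDegree_map_le)
        · intro a ha c hc hac
          have h1 := hrootmod _ _ hac
          rw [Nat.cast_pow, Nat.cast_pow] at h1
          exact pow_injOn_Iio_orderOf (Finset.mem_range.1 ha) (Finset.mem_range.1 hc) h1
    obtain ⟨s, hs, hsF⟩ : ∃ s : AdjoinRoot g →+* AdjoinRoot g, (∀ c, s (algebraMap F _ c) = algebraMap F _ (σ c)) ∧
        s ρ = ρ ^ q₀ := by
      obtain ⟨N, hN⟩ : ∃ N, q₀ = ringChar F ^ N := by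
        haveI : Fintype F₀ := Fintype.ofFinite _
        haveI : CharP F₀ (ringChar F) :=
          (RingHom.charP_iff_charP (F₀.subtype : F₀ →+* F) (ringChar F)).2 inferInstance
        obtain ⟨N, -, hN⟩ := FiniteField.card F₀ (ringChar F)
        rw [← Nat.card_eq_fintype_card, hF₀] at hN
        exact ⟨N, hN⟩
      refine ⟨iterateFrobenius (AdjoinRoot g) (ringChar F) N, fun c => ?_, ?_⟩
      · rw [hσ, iterateFrobenius_def, hN, map_pow]
      · rw [iterateFrobenius_def, hN]
    have h1 := hp2 _ ρ g s hs hg0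
    rw [hsF, heq] at h1
    obtain ⟨m, -, hm⟩ := Finset.mem_image.1 (hRi ▸ (hmem _).2 h1 : ρ ^ q₀ ∈ (Finset.range i).image fun m => ρ ^ Nat.card F ^ m)
    have h2 := hrootmod _ _ hm
    rw [Nat.cast_pow] at h2
    exact hq0 m h2
  -- the element
  have hfin : finrank F (AdjoinRoot g × (Fin (n - i) → F)) = finrank F (Fin n → F) := by
    rw [Module.finrank_prod, pb.finrank, AdjoinRoot.powerBasis_dim, hdeg, Module.finrank_fin_fun,
      Module.finrank_fin_fun]
    omega
  let ε := LinearEquiv.ofFinrankEq _ _ hfin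
  let Φ : (End F (AdjoinRoot g) × End F (Fin (n - i) → F)) →ₐ[F] Matrix (Fin n) (Fin n) F :=
    (LinearMap.toMatrixAlgEquiv'.toAlgHom.comp (ε.conjAlgEquiv F).toAlgHom).comp
      (LinearMap.prodMapAlgHom F (AdjoinRoot g) (Fin (n - i) → F))
  have hΦinj : Function.Injective Φ := fun a b hab => by
    have h1 : LinearMap.prodMap a.1 a.2 = LinearMap.prodMap b.1 b.2 :=
      (ε.conjAlgEquiv F).injective (LinearMap.toMatrixAlgEquiv'.injective hab)
    refine Prod.ext (LinearMap.ext fun t => ?_) (LinearMap.ext fun t => ?_)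
    · simpa using congrArg Prod.fst (LinearMap.congr_fun h1 (t, 0))
    · simpa using congrArg Prod.snd (LinearMap.congr_fun h1 (0, t))
  set a : End F (AdjoinRoot g) × End F (Fin (n - i) → F) := (Algebra.lmul F (AdjoinRoot g) ρ, 1) with ha
  have har : a ^ r = 1 := by
    rw [ha, Prod.pow_mk, ← map_pow, hρ.pow_eq_one, map_one, one_pow]; rfl
  have hr1 : ρ ≠ 1 := hρ.ne_one hrp.one_lt
  have hann : aeval (Φ a) (g * (X - 1)) = 0 := by
    rw [aeval_algHom_apply, map_mul, map_sub, aeval_X, map_one]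
    have h1 : aeval a g * (a - 1) = 0 := by
      refine Prod.ext ?_ ?_
      · show (aeval a g).1 * (a - 1).1 = 0
        rw [show (aeval a g).1 = aeval a.1 g from
          (aeval_algHom_apply (AlgHom.fst F (End F (AdjoinRoot g)) (End F (Fin (n - i) → F))) a g).symm, ha,
          aeval_algHom_apply, hg0, map_zero, zero_mul]
      · show (aeval a g).2 * (a - 1).2 = 0
        simp [ha]
    rw [h1, map_zero]
  have hdet : (Φ a).det = 1 := by
    refine H97.eq_one_of_pow_eq_one (r := r) hi ?_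
    rw [← Matrix.det_pow, ← map_pow, har, map_one, Matrix.det_one]
  let x : Matrix.SpecialLinearGroup (Fin n) F := ⟨Φ a, hdet⟩
  have hxr : (x : Matrix (Fin n) (Fin n) F) ^ r = 1 := by
    show Φ a ^ r = 1; rw [← map_pow, har, map_one]
  have hxs : ∀ z : F, (x : Matrix (Fin n) (Fin n) F) ≠ z • 1 := by
    intro z hz
    have h1 : a = z • 1 := hΦinj (by rw [map_smul, map_one]; exact hz)
    have h2 := LinearMap.congr_fun (congrArg Prod.fst h1) 1
    simp only [ha, Algebra.coe_lmul_eq_mul, LinearMap.mul_apply', mul_one, Prod.smul_fst, Prod.fst_one,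
      LinearMap.smul_apply, Module.End.one_apply] at h2
    rw [Algebra.smul_def, mul_one] at h2
    have h3 : z ^ r = 1 := (algebraMap F (AdjoinRoot g)).injective (by
      rw [map_pow, map_one, ← h2, hρ.pow_eq_one])
    rw [H97.eq_one_of_pow_eq_one (r := r) hi h3, map_one] at h2
    exact hr1 h2
  refine ⟨x, by rw [Matrix.SpecialLinearGroup.coe_pow, hxr, one_smul], hxs, ?_⟩
  rintro ⟨P, hP⟩
  obtain ⟨l, Q, hl, hQ⟩ := twist_of_conj hfix x P hP
  set X₀ := (x : Matrix (Fin n) (Fin n) F) with hX₀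
  set X₁ := X₀.map σ with hX₁
  set C₀ := (Q : Matrix (Fin n) (Fin n) F) * X₀ * (Q⁻¹ : GL (Fin n) F) with hC₀
  have hX₁r : X₁ ^ r = 1 := by
    have h1 := map_pow σ.mapMatrix X₀ r
    rw [hxr, map_one] at h1
    exact h1.symm
  have hC₀r : C₀ ^ r = 1 := by
    rw [hC₀, Units.conj_pow, hxr, mul_one, ← Units.val_mul, mul_inv_cancel, Units.val_one]
  have hlr : l ^ r = 1 := by
    have h1 := congrArg (· ^ r) hQ
    simp only [_root_.smul_pow, hX₁r, hC₀r] at h1
    have h2 := congrFun (congrFun h1 0) 0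
    simpa using h2.symm
  rw [H97.eq_one_of_pow_eq_one (r := r) hi hlr, one_smul] at hQ
  have hann1 : aeval X₁ (g * (X - 1)) = 0 := by
    rw [hQ, hC₀]
    have key : ∀ p : F[X], aeval C₀ p = (Q : Matrix (Fin n) (Fin n) F) * aeval X₀ p * (Q⁻¹ : GL (Fin n) F) := by
      intro p
      induction p using Polynomial.induction_on' with
      | add p p' hp hp' => rw [map_add, map_add, hp, hp', mul_add, add_mul]
      | monomial k c =>
        rw [aeval_monomial, aeval_monomial, ← Algebra.smul_def, ← Algebra.smul_def, hC₀, Units.conj_pow,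
          mul_smul_comm, smul_mul_assoc]
    rw [← hC₀, key, hann, mul_zero, zero_mul]
  have hann2 : aeval X₁ (g.map σ * (X - 1)) = 0 := by
    have hcomp : (algebraMap F (Matrix (Fin n) (Fin n) F)).comp σ =
        σ.mapMatrix.comp (algebraMap F (Matrix (Fin n) (Fin n) F)) := by
      refine RingHom.ext fun c => ?_
      ext a b
      simp only [RingHom.comp_apply, RingHom.mapMatrix_apply, Matrix.map_apply, Matrix.algebraMap_matrix_apply]
      split_ifs <;> simp
    have h1 : aeval (σ.mapMatrix X₀) ((g * (X - 1)).map σ) = σ.mapMatrix (aeval X₀ (g * (X - 1))) := by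
      rw [aeval_def, eval₂_map, hcomp, aeval_def, hom_eval₂]
    rw [hann, map_zero, Polynomial.map_mul, Polynomial.map_sub, map_X, Polynomial.map_one] at h1
    exact h1
  have hcop : IsCoprime g (g.map σ) := by
    exact hgi.coprime_iff_not_dvd.2 fun hd =>
      hne (eq_of_monic_of_associated (hgm.map σ) hgm ((hgi.associated_of_dvd hgσi hd).symm))
  obtain ⟨u, v, huv⟩ := hcop
  have h2 : aeval X₁ (X - 1 : F[X]) = 0 := by
    have h3 : (X - 1 : F[X]) = u * (g * (X - 1)) + v * (g.map σ * (X - 1)) := by linear_combination -(X - 1) * huv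
    rw [h3, map_add, map_mul (aeval X₁) u, map_mul (aeval X₁) v, hann1, hann2, mul_zero, mul_zero, add_zero]
  rw [map_sub, aeval_X, map_one, sub_eq_zero] at h2
  refine hxs 1 ?_
  rw [one_smul]
  refine Matrix.map_injective σ.injective ?_
  show X₁ = (1 : Matrix (Fin n) (Fin n) F).map σ
  rw [h2, Matrix.map_one σ (map_zero σ) (map_one σ)]

end Cfsg.Agent.H19.SubF
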