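import Mathlib
import Cfsg.Prelude.Def_GeometricClasses
import Cfsg.Agent.H97.Elements

/-! Ranks of `g₁ ⊗ g₂ - c` and elements of prime order which are not Kronecker products. -/

set_option autoImplicit false

namespace Cfsg.Agent.H19.TensorRank

open Matrix
open scoped Kronecker

variable {F : Type*} [Field F]

/-- A matrix is scalar. -/
def IsScalarMat {κ : Type*} [DecidableEq κ] (M : Matrix κ κ F) : Prop :=
  ∃ s : F, M = s • (1 : Matrix κ κ F)

/-- A matrix which is not scalar has a row `φ` and a column `v` with `φ v = 0` and `φ M v ≠ 0`. -/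
theorem exists_row_col {κ : Type*} [Fintype κ] [DecidableEq κ] (M : Matrix κ κ F) (h : ¬ IsScalarMat M) :
    ∃ (R : Matrix (Fin 1) κ F) (C : Matrix κ (Fin 1) F), R * C = 0 ∧ (R * M * C) 0 0 ≠ 0 := by
  by_cases hoff : ∃ i j, i ≠ j ∧ M i j ≠ 0
  · obtain ⟨i, j, hij, hM⟩ := hoff
    refine ⟨Matrix.single 0 i 1, Matrix.single j 0 1, Matrix.single_mul_single_of_ne (h := hij) .., ?_⟩
    simpa [Matrix.single_mul_mul_single] using hM
  · push Not at hoff
    have hd : ∃ i j, M i i ≠ M j j := by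
      by_contra hne
      push Not at hne
      refine h ?_
      by_cases he : Nonempty κ
      · obtain ⟨i0⟩ := he
        refine ⟨M i0 i0, ?_⟩
        ext i j
        by_cases hij : i = j
        · subst hij; simp [hne i i0]
        · simp [hoff i j hij, hij]
      · exact ⟨0, by ext i; exact absurd ⟨i⟩ he⟩
    obtain ⟨i, j, hne⟩ := hd
    have hij : i ≠ j := fun e => hne (by rw [e])
    refine ⟨Matrix.single 0 i 1 - Matrix.single 0 j 1, Matrix.single i 0 1 + Matrix.single j 0 1, ?_, ?_⟩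
    · simp [Matrix.sub_mul, Matrix.mul_add, hij, hij.symm]
    · simp [Matrix.sub_mul, Matrix.mul_add, Matrix.single_mul_mul_single, hoff i j hij,
        hoff j i hij.symm]
      intro h0
      exact hne (by linear_combination h0)

variable {a b : ℕ}

/-- If the right factor is not scalar, `g₁ ⊗ g₂ - c` has rank at least `a`. -/
theorem le_rank_of_right (g₁ : Matrix (Fin a) (Fin a) F) (hg₁ : IsUnit g₁.det) (g₂ : Matrix (Fin b) (Fin b) F)
    (h : ¬ IsScalarMat g₂) (c : F) : a ≤ (g₁ ⊗ₖ g₂ - c • 1).rank := by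
  obtain ⟨R, C, hRC, hRMC⟩ := exists_row_col g₂ h
  set L : Matrix (Fin a × Fin 1) (Fin a × Fin b) F := (1 : Matrix (Fin a) (Fin a) F) ⊗ₖ R with hL
  set K : Matrix (Fin a × Fin b) (Fin a × Fin 1) F := (1 : Matrix (Fin a) (Fin a) F) ⊗ₖ C with hK
  have hprod : L * (g₁ ⊗ₖ g₂ - c • 1) * K = g₁ ⊗ₖ (R * g₂ * C) := by
    rw [Matrix.mul_sub, Matrix.sub_mul, Matrix.mul_smul, Matrix.mul_one, Matrix.smul_mul, hL, hK,
      ← Matrix.mul_kronecker_mul, ← Matrix.mul_kronecker_mul, ← Matrix.mul_kronecker_mul, hRC,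
      Matrix.kronecker_zero, smul_zero, sub_zero, Matrix.one_mul, Matrix.mul_one]
  have hu : IsUnit (g₁ ⊗ₖ (R * g₂ * C)).det := by
    rw [Matrix.det_kronecker]
    refine (hg₁.pow _).mul (IsUnit.pow _ ?_)
    rw [Matrix.det_fin_one]
    exact isUnit_iff_ne_zero.2 hRMC
  have h1 := Matrix.rank_of_isUnit _ ((Matrix.isUnit_iff_isUnit_det _).2 hu)
  rw [← hprod] at h1
  have h2 := (Matrix.rank_mul_le_left (L * (g₁ ⊗ₖ g₂ - c • 1)) K).trans (Matrix.rank_mul_le_right L _)
  rw [h1] at h2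
  simpa using h2

/-- If the left factor is not scalar, `g₁ ⊗ g₂ - c` has rank at least `b`. -/
theorem le_rank_of_left (g₁ : Matrix (Fin a) (Fin a) F) (g₂ : Matrix (Fin b) (Fin b) F) (hg₂ : IsUnit g₂.det)
    (h : ¬ IsScalarMat g₁) (c : F) : b ≤ (g₁ ⊗ₖ g₂ - c • 1).rank := by
  have hsw : (g₁ ⊗ₖ g₂ - c • 1) = (g₂ ⊗ₖ g₁ - c • 1).submatrix (Equiv.prodComm _ _) (Equiv.prodComm _ _) := by
    ext ⟨i, j⟩ ⟨k, l⟩
    simp [Matrix.one_apply, mul_comm, and_comm]
  rw [hsw, Matrix.rank_submatrix]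
  exact le_rank_of_right g₂ hg₂ g₁ h c

/-- The rank of `1 ⊗ M`. -/
theorem rank_one_kron (M : Matrix (Fin b) (Fin b) F) :
    ((1 : Matrix (Fin a) (Fin a) F) ⊗ₖ M).rank = a * M.rank := by
  have hmv : ∀ (v : Fin a × Fin b → F) (i : Fin a) (j : Fin b),
      (((1 : Matrix (Fin a) (Fin a) F) ⊗ₖ M) *ᵥ v) (i, j) = (M *ᵥ fun j' => v (i, j')) j := by
    intro v i j
    simp [Matrix.mulVec, dotProduct, Fintype.sum_prod_type, Matrix.one_apply]
  let e : (Fin a → LinearMap.range M.mulVecLin) ≃ₗ[F]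
      LinearMap.range ((1 : Matrix (Fin a) (Fin a) F) ⊗ₖ M).mulVecLin :=
    { toFun := fun f => ⟨fun p => (f p.1 : Fin b → F) p.2, by
        choose u hu using fun i => (f i).2
        refine ⟨fun p => u p.1 p.2, funext fun p => ?_⟩
        rw [Matrix.mulVecLin_apply, hmv]
        exact congrFun (hu p.1) p.2⟩
      map_add' := fun f g => rfl
      map_smul' := fun c f => rfl
      invFun := fun w i => ⟨fun j => (w : Fin a × Fin b → F) (i, j), by
        obtain ⟨v, hv⟩ := w.2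
        refine ⟨fun j' => v (i, j'), funext fun j => ?_⟩
        rw [← hv, Matrix.mulVecLin_apply, Matrix.mulVecLin_apply, hmv]⟩
      left_inv := fun f => rfl
      right_inv := fun w => rfl }
  rw [Matrix.rank, ← e.finrank_eq, Module.finrank_pi_fintype]
  simp [Matrix.rank]

/-- `x` is conjugate to a Kronecker product. -/
def ConjKron {n : ℕ} (e : Fin n ≃ Fin a × Fin b) (x : Matrix (Fin n) (Fin n) F) : Prop :=
  ∃ (A : GL (Fin n) F) (g₁ : GL (Fin a) F) (g₂ : GL (Fin b) F),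
    x = (A : Matrix (Fin n) (Fin n) F) *
      ((g₁ : Matrix (Fin a) (Fin a) F) ⊗ₖ (g₂ : Matrix (Fin b) (Fin b) F)).submatrix e e *
        ((A⁻¹ : GL (Fin n) F) : Matrix (Fin n) (Fin n) F)

variable {n : ℕ} {e : Fin n ≃ Fin a × Fin b}

/-- Membership in the stabiliser of a tensor decomposition. -/
theorem mem_tensor_iff (P y : GL (Fin n) F) :
    y ∈ Cfsg.Geo.tensorProductSubgroup a b e P ↔ ∃ (g₁ : GL (Fin a) F) (g₂ : GL (Fin b) F),
      (y : Matrix (Fin n) (Fin n) F) = (P : Matrix (Fin n) (Fin n) F) *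
        ((g₁ : Matrix (Fin a) (Fin a) F) ⊗ₖ (g₂ : Matrix (Fin b) (Fin b) F)).submatrix e e *
        ((P⁻¹ : GL (Fin n) F) : Matrix (Fin n) (Fin n) F) := by
  constructor
  · rintro ⟨u, ⟨k, ⟨g₁, g₂, hk⟩, rfl⟩, rfl⟩
    refine ⟨g₁, g₂, ?_⟩
    simp [MulAut.conj_apply, Cfsg.Geo.glReindex, hk, Matrix.reindex_apply]
  · rintro ⟨g₁, g₂, hy⟩
    have hu : IsUnit ((g₁ : Matrix (Fin a) (Fin a) F) ⊗ₖ (g₂ : Matrix (Fin b) (Fin b) F)) := by
      rw [Matrix.isUnit_iff_isUnit_det, Matrix.det_kronecker]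
      exact (((Matrix.isUnit_iff_isUnit_det _).1 g₁.isUnit).pow _).mul
        (((Matrix.isUnit_iff_isUnit_det _).1 g₂.isUnit).pow _)
    refine ⟨_, ⟨hu.unit, ⟨g₁, g₂, rfl⟩, rfl⟩, ?_⟩
    ext1
    simp [MulAut.conj_apply, Cfsg.Geo.glReindex, hy, Matrix.reindex_apply]

/-- A fixed point gives a conjugate Kronecker product. -/
theorem ConjKron.of_mem {x g P : GL (Fin n) F} (h : g⁻¹ * x * g ∈ Cfsg.Geo.tensorProductSubgroup a b e P) :
    ConjKron e (x : Matrix (Fin n) (Fin n) F) := by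
  obtain ⟨g₁, g₂, hy⟩ := (mem_tensor_iff P _).1 h
  refine ⟨g * P, g₁, g₂, ?_⟩
  calc (x : Matrix (Fin n) (Fin n) F)
      = ((g * (g⁻¹ * x * g) * g⁻¹ : GL (Fin n) F) : Matrix (Fin n) (Fin n) F) := by
        rw [show g * (g⁻¹ * x * g) * g⁻¹ = x by group]
    _ = _ := by
        rw [Units.val_mul, Units.val_mul, hy]
        simp [Matrix.mul_assoc]

/-- Ranks of a conjugate Kronecker product. -/
theorem rank_sub_eq {x : Matrix (Fin n) (Fin n) F} (A : GL (Fin n) F) (N : Matrix (Fin a × Fin b) (Fin a × Fin b) F)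
    (hx : x = (A : Matrix (Fin n) (Fin n) F) * N.submatrix e e * ((A⁻¹ : GL (Fin n) F) : Matrix (Fin n) (Fin n) F))
    (c : F) : (x - c • 1).rank = (N - c • 1).rank := by
  have hA : IsUnit (A : Matrix (Fin n) (Fin n) F).det := (Matrix.isUnit_iff_isUnit_det _).1 A.isUnit
  have hAi : IsUnit ((A⁻¹ : GL (Fin n) F) : Matrix (Fin n) (Fin n) F).det :=
    (Matrix.isUnit_iff_isUnit_det _).1 (A⁻¹).isUnit
  have h1 : x - c • 1 = (A : Matrix (Fin n) (Fin n) F) * (N - c • 1).submatrix e e *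
      ((A⁻¹ : GL (Fin n) F) : Matrix (Fin n) (Fin n) F) := by
    rw [Matrix.submatrix_sub, Pi.sub_apply, Pi.sub_apply, Matrix.submatrix_smul, Pi.smul_apply, Pi.smul_apply,
      Matrix.submatrix_one_equiv, Matrix.mul_sub, Matrix.sub_mul, ← hx, Matrix.mul_smul, Matrix.mul_one,
      Matrix.smul_mul, ← Units.val_mul, mul_inv_cancel, Units.val_one]
  rw [h1, Matrix.rank_mul_eq_left_of_isUnit_det _ _ hAi, Matrix.rank_mul_eq_right_of_isUnit_det _ _ hA,
    Matrix.rank_submatrix]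

/-- Some `x - c` of rank below `a` forces `x` to be scalar. -/
theorem not_conjKron_of_rank_lt (hab : a ≤ b) {x : Matrix (Fin n) (Fin n) F}
    (hx : ∀ z : F, x ≠ z • 1) {c : F} (hc : (x - c • 1).rank < a) : ¬ ConjKron e x := by
  rintro ⟨A, g₁, g₂, h⟩
  have hr := rank_sub_eq A _ h c
  obtain ⟨s, hs⟩ : IsScalarMat (g₁ : Matrix (Fin a) (Fin a) F) := by
    by_contra hn
    have := le_rank_of_left _ _ ((Matrix.isUnit_iff_isUnit_det _).1 g₂.isUnit) hn c
    omega
  obtain ⟨t, ht⟩ : IsScalarMat (g₂ : Matrix (Fin b) (Fin b) F) := by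
    by_contra hn
    have := le_rank_of_right _ ((Matrix.isUnit_iff_isUnit_det _).1 g₁.isUnit) _ hn c
    omega
  refine hx (s * t) ?_
  rw [h, hs, ht, Matrix.smul_kronecker, Matrix.kronecker_smul, Matrix.one_kronecker_one, smul_smul,
    Matrix.submatrix_smul, Pi.smul_apply, Pi.smul_apply, Matrix.submatrix_one_equiv, Matrix.mul_smul,
    Matrix.mul_one, Matrix.smul_mul, ← Units.val_mul, mul_inv_cancel, Units.val_one]

/-- Some `x - c` of rank below `b` forces the left factor to be scalar. -/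
theorem exists_one_kron_of_rank_lt {x : Matrix (Fin n) (Fin n) F} {c : F} (hc : (x - c • 1).rank < b)
    (hx : ConjKron e x) : ∃ (A : GL (Fin n) F) (M : Matrix (Fin b) (Fin b) F),
      x = (A : Matrix (Fin n) (Fin n) F) * ((1 : Matrix (Fin a) (Fin a) F) ⊗ₖ M).submatrix e e *
        ((A⁻¹ : GL (Fin n) F) : Matrix (Fin n) (Fin n) F) := by
  obtain ⟨A, g₁, g₂, h⟩ := hx
  obtain ⟨s, hs⟩ : IsScalarMat (g₁ : Matrix (Fin a) (Fin a) F) := by
    by_contra hn
    have h1 := le_rank_of_left _ _ ((Matrix.isUnit_iff_isUnit_det _).1 g₂.isUnit) hn c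
    rw [← rank_sub_eq A _ h c] at h1
    omega
  exact ⟨A, s • (g₂ : Matrix (Fin b) (Fin b) F), by rw [h, hs, Matrix.smul_kronecker, Matrix.kronecker_smul]⟩

/-- The ranks for `1 ⊗ M`. -/
theorem rank_sub_one_kron {x : Matrix (Fin n) (Fin n) F} (A : GL (Fin n) F) (M : Matrix (Fin b) (Fin b) F)
    (hx : x = (A : Matrix (Fin n) (Fin n) F) * ((1 : Matrix (Fin a) (Fin a) F) ⊗ₖ M).submatrix e e *
      ((A⁻¹ : GL (Fin n) F) : Matrix (Fin n) (Fin n) F)) (d : F) :
    (x - d • 1).rank = a * (M - d • 1).rank := by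
  rw [rank_sub_eq A _ hx d, ← rank_one_kron]
  congr 1
  ext ⟨i, j⟩ ⟨k, l⟩
  simp [Matrix.one_apply]
  split_ifs <;> simp_all

/-- Low rank somewhere forces all ranks of `x - d` to be multiples of `a`. -/
theorem dvd_rank_of_rank_lt {x : Matrix (Fin n) (Fin n) F} {c : F} (hc : (x - c • 1).rank < b)
    (hx : ConjKron e x) (d : F) : a ∣ (x - d • 1).rank := by
  obtain ⟨A, M, h⟩ := exists_one_kron_of_rank_lt hc hx
  exact ⟨_, rank_sub_one_kron A M h d⟩

/-- Powers. -/
theorem conj_kron_pow (A : GL (Fin n) F) (g₁ : Matrix (Fin a) (Fin a) F) (g₂ : Matrix (Fin b) (Fin b) F) (k : ℕ) :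
    ((A : Matrix (Fin n) (Fin n) F) * (g₁ ⊗ₖ g₂).submatrix e e *
      ((A⁻¹ : GL (Fin n) F) : Matrix (Fin n) (Fin n) F)) ^ k =
    (A : Matrix (Fin n) (Fin n) F) * ((g₁ ^ k) ⊗ₖ (g₂ ^ k)).submatrix e e *
      ((A⁻¹ : GL (Fin n) F) : Matrix (Fin n) (Fin n) F) := by
  induction k with
  | zero => simp
  | succ k ih =>
    rw [pow_succ, ih, pow_succ, pow_succ, Matrix.mul_kronecker_mul,
      ← Matrix.submatrix_mul_equiv _ _ e e e]
    simp only [Matrix.mul_assoc]
    rw [← Matrix.mul_assoc _ (A : Matrix (Fin n) (Fin n) F), ← Units.val_mul, inv_mul_cancel, Units.val_one,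
      Matrix.one_mul]

/-- An element of order `r` moving only `ord_r q ≥ 2` dimensions is not a Kronecker product. -/
theorem not_conjKron_of_min_moved [Finite F] {r : ℕ} [Fact r.Prime] (hr : (r : F) ≠ 0) (ha : 2 ≤ a) (hab : a < b)
    (hi : 2 ≤ orderOf (Nat.card F : ZMod r)) {x : Matrix (Fin n) (Fin n) F} (hxr : x ^ r = 1)
    (hxm : (x - (1 : F) • 1).rank = orderOf (Nat.card F : ZMod r)) : ¬ ConjKron e x := by
  classical
  generalize hI : orderOf (Nat.card F : ZMod r) = i at *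
  have hmr : ∀ {m : ℕ} (M : Matrix (Fin m) (Fin m) F), M ^ r = 1 → i ∣ (M - (1 : F) • 1).rank := by
    intro m M hM
    have hT : (Matrix.toLinAlgEquiv' M : Module.End F (Fin m → F)) ^ r = 1 := by rw [← map_pow, hM, map_one]
    have h1 := H97.dvd_finrank_fpf hr _ hT _ (H97.movedSpace_inv _) (H97.disjoint_fixed_moved hr _ hT).symm
    rw [hI] at h1
    have he : (M - (1 : F) • 1).mulVecLin =
        (Matrix.toLinAlgEquiv' M : Module.End F (Fin m → F)) - 1 := by
      refine LinearMap.ext fun v => ?_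
      simp [Matrix.sub_mulVec]
    rw [Matrix.rank, he]
    exact h1
  intro hK
  -- the left factor is scalar
  have hM : ∃ (A : GL (Fin n) F) (M : Matrix (Fin b) (Fin b) F),
      x = (A : Matrix (Fin n) (Fin n) F) * ((1 : Matrix (Fin a) (Fin a) F) ⊗ₖ M).submatrix e e *
        ((A⁻¹ : GL (Fin n) F) : Matrix (Fin n) (Fin n) F) := by
    rcases Nat.lt_or_ge i b with hib | hib
    · exact exists_one_kron_of_rank_lt (c := 1) (by omega) hK
    · obtain ⟨A, g₁, g₂, h⟩ := hK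
      have hp : ((g₁ : Matrix (Fin a) (Fin a) F) ^ r) ⊗ₖ ((g₂ : Matrix (Fin b) (Fin b) F) ^ r) = 1 := by
        have h1 := conj_kron_pow (e := e) A (g₁ : Matrix (Fin a) (Fin a) F) (g₂ : Matrix (Fin b) (Fin b) F) r
        rw [← h, hxr] at h1
        have h2 := congrArg (fun N => ((A⁻¹ : GL (Fin n) F) : Matrix (Fin n) (Fin n) F) * N *
          (A : Matrix (Fin n) (Fin n) F)) h1
        simp [Matrix.mul_assoc] at h2
        refine Matrix.ext fun p q => ?_
        have h3 := congrFun (congrFun h2 (e.symm p)) (e.symm q)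
        simp only [Matrix.submatrix_apply, Equiv.apply_symm_apply] at h3
        rw [← h3]
        simp [Matrix.one_apply]
      let j0 : Fin b := ⟨0, by omega⟩
      have hent : ∀ i i', ((g₁ : Matrix (Fin a) (Fin a) F) ^ r) i i' * ((g₂ : Matrix (Fin b) (Fin b) F) ^ r) j0 j0 =
          (1 : Matrix (Fin a) (Fin a) F) i i' := by
        intro i i'
        have := congrFun (congrFun hp (i, j0)) (i', j0)
        simpa [Matrix.one_apply] using this
      have hne : ((g₂ : Matrix (Fin b) (Fin b) F) ^ r) j0 j0 ≠ 0 := by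
        intro h0
        have := hent ⟨0, by omega⟩ ⟨0, by omega⟩
        rw [h0, mul_zero, Matrix.one_apply_eq] at this
        exact zero_ne_one this
      obtain ⟨w, hw⟩ := H97.exists_pow_eq (F := F) (r := r) (by omega)
        (((g₂ : Matrix (Fin b) (Fin b) F) ^ r) j0 j0)
      have hw0 : w ≠ 0 := fun h0 => hne (by rw [← hw, h0, zero_pow (Fact.out : r.Prime).ne_zero])
      have hg : (w • (g₁ : Matrix (Fin a) (Fin a) F)) ^ r = 1 := by
        rw [smul_pow, hw]
        ext i i'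
        rw [Matrix.smul_apply, smul_eq_mul, mul_comm, hent]
      have hd := hmr _ hg
      have hle : (w • (g₁ : Matrix (Fin a) (Fin a) F) - (1 : F) • 1).rank ≤ a := Matrix.rank_le_width _
      have h0 : (w • (g₁ : Matrix (Fin a) (Fin a) F) - (1 : F) • 1).rank = 0 := by
        rcases Nat.eq_zero_or_pos (w • (g₁ : Matrix (Fin a) (Fin a) F) - (1 : F) • 1).rank with h0 | h0
        · exact h0
        · have := Nat.le_of_dvd h0 hd; omega
      have hsc : (g₁ : Matrix (Fin a) (Fin a) F) = w⁻¹ • 1 := by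
        rw [Matrix.rank, Submodule.finrank_eq_zero, LinearMap.range_eq_bot] at h0
        have h0' : w • (g₁ : Matrix (Fin a) (Fin a) F) - (1 : F) • 1 = 0 :=
          Matrix.ext_of_mulVec_single fun k => by
            rw [Matrix.zero_mulVec, ← Matrix.mulVecLin_apply, h0, LinearMap.zero_apply]
        rw [sub_eq_zero, one_smul] at h0'
        rw [← h0', smul_smul, inv_mul_cancel₀ hw0, one_smul]
      exact ⟨A, w⁻¹ • (g₂ : Matrix (Fin b) (Fin b) F), by
        rw [h, hsc, Matrix.smul_kronecker, Matrix.kronecker_smul]⟩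
  obtain ⟨A, M, h⟩ := hM
  have hMr : M ^ r = 1 := by
    have h1 := conj_kron_pow (e := e) A (1 : Matrix (Fin a) (Fin a) F) M r
    rw [← h, hxr, one_pow] at h1
    have h2 := congrArg (fun N => ((A⁻¹ : GL (Fin n) F) : Matrix (Fin n) (Fin n) F) * N *
      (A : Matrix (Fin n) (Fin n) F)) h1
    simp [Matrix.mul_assoc] at h2
    refine Matrix.ext fun p q => ?_
    have h3 := congrFun (congrFun h2 (e.symm (⟨0, by omega⟩, p))) (e.symm (⟨0, by omega⟩, q))
    simpa [Matrix.one_apply, Matrix.submatrix_apply, eq_comm] using h3.symm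
  obtain ⟨l, hl⟩ := hmr M hMr
  have h1 := rank_sub_one_kron A M h 1
  rw [hxm, hl] at h1
  rcases Nat.eq_zero_or_pos l with h0 | h0
  · subst h0; simp at h1; omega
  · nlinarith

end Cfsg.Agent.H19.TensorRank
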