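import Mathlib
import Cfsg.Agent.H19.TensorRank
import Cfsg.Agent.H97.SympPlanes
import Cfsg.Agent.H97.OrthPieces
import Cfsg.Agent.H97.SympSemisimple

/-! Square roots of scalars in `Sp_{2d}` and tensor decompositions of the symplectic form. -/

set_option autoImplicit false

universe u

namespace Cfsg.Agent.H19.SympTensor

open Matrix Module
open scoped Kronecker

section Planes

variable {F V : Type*} [Field F] [AddCommGroup V] [Module F V] [FiniteDimensional F V]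

/-- Orthogonal planes with prescribed values of the form, by repeated splitting. -/
theorem exists_planes (B : LinearMap.BilinForm F V) (hB : B.IsAlt) (T : V →ₗ[F] V)
    (hTB : ∀ u v, B (T u) (T v) = B u v) {z : F} (hz : z ≠ 0) (hT : ∀ v, T (T v) = z • v) (R : V → V → Prop)
    (step : ∀ P : Submodule F V, (∀ v ∈ P, T v ∈ P) → H97.NondegOn B P → P ≠ ⊥ → ∀ l : F, l ≠ 0 →
      ∃ v ∈ P, ∃ w ∈ P, B v w = l ∧ R v w ∧
        T v ∈ Submodule.span F {v, w} ∧ T w ∈ Submodule.span F {v, w}) :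
    ∀ (m : ℕ) (P : Submodule F V), (∀ v ∈ P, T v ∈ P) → H97.NondegOn B P → finrank F P = 2 * m →
      ∀ l : Fin m → F, (∀ j, l j ≠ 0) → ∃ v w : Fin m → V, (∀ j, v j ∈ P ∧ w j ∈ P) ∧ (∀ j, R (v j) (w j)) ∧
        (∀ j, B (v j) (w j) = l j) ∧
        ∀ j k, j ≠ k → B (v j) (v k) = 0 ∧ B (v j) (w k) = 0 ∧ B (w j) (v k) = 0 ∧ B (w j) (w k) = 0 := by
  intro m
  induction m with
  | zero => exact fun P _ _ _ l _ => ⟨Fin.elim0, Fin.elim0, fun j => j.elim0, fun j => j.elim0, fun j => j.elim0,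
      fun j => j.elim0⟩
  | succ m ih =>
    intro P hPT hP hdim l hl
    have hP0 : P ≠ ⊥ := fun h => by rw [h, finrank_bot] at hdim; omega
    obtain ⟨v₀, hv₀, w₀, hw₀, hval, hR, hTv, hTw⟩ := step P hPT hP hP0 (l 0) (hl 0)
    have hli : LinearIndependent F ![v₀, w₀] := by
      refine LinearIndependent.pair_iff.2 fun s t hst => ?_
      have h1 := congrArg (fun y => B y w₀) hst
      have h2 := congrArg (fun y => B v₀ y) hst
      simp [hB w₀, hval] at h1
      simp [hB v₀, hval] at h2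
      exact ⟨h1.resolve_right (hl 0), h2.resolve_right (hl 0)⟩
    set S := Submodule.span F ({v₀, w₀} : Set V) with hS
    have hSd : finrank F S = 2 := by
      have h := finrank_span_eq_card hli
      rwa [Matrix.range_cons_cons_empty, Fintype.card_fin] at h
    have hSn : H97.NondegOn B S := by
      intro y hy h0
      obtain ⟨s, t, rfl⟩ := Submodule.mem_span_pair.1 hy
      have h1 := h0 w₀ (Submodule.subset_span (by simp))
      have h2 := h0 v₀ (Submodule.subset_span (by simp))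
      simp [hB w₀, hval] at h1
      simp [hB v₀, ← hB.neg_eq v₀ w₀, hval] at h2
      simp [h1.resolve_right (hl 0), h2.resolve_right (hl 0)]
    have hST : ∀ y ∈ S, T y ∈ S := by
      intro y hy
      obtain ⟨s, t, rfl⟩ := Submodule.mem_span_pair.1 hy
      rw [map_add, map_smul, map_smul]
      exact S.add_mem (S.smul_mem _ hTv) (S.smul_mem _ hTw)
    have hSP : S ≤ P := Submodule.span_le.2 (by rintro y (rfl | rfl) <;> assumption)
    obtain ⟨Q, hQP, hQT, hQn, hdis, hsum, horth⟩ := H97.nondegOn_split hB.isRefl hTB hz hT hSP hPT hST hP hSn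
    have hQd : finrank F Q = 2 * m := by
      have h := Submodule.finrank_sup_add_finrank_inf_eq S Q
      rw [hsum, hdis.eq_bot, finrank_bot, hdim, hSd] at h
      omega
    obtain ⟨v, w, hmem, hRs, hvals, ho⟩ := ih Q hQT hQn hQd (fun j => l j.succ) fun j => hl _
    have hvS : v₀ ∈ S := Submodule.subset_span (by simp)
    have hwS : w₀ ∈ S := Submodule.subset_span (by simp)
    refine ⟨Fin.cons v₀ v, Fin.cons w₀ w, ?_, ?_, ?_, ?_⟩
    · intro j
      refine Fin.cases ⟨hv₀, hw₀⟩ (fun i => ?_) j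
      simp only [Fin.cons_succ]
      exact ⟨hQP (hmem i).1, hQP (hmem i).2⟩
    · intro j
      refine Fin.cases hR (fun i => ?_) j
      simpa using hRs i
    · intro j
      refine Fin.cases hval (fun i => ?_) j
      simpa using hvals i
    · intro j k
      refine Fin.cases (Fin.cases (fun h => absurd rfl h) (fun k _ => ?_) k) (fun i => Fin.cases (fun _ => ?_)
        (fun k h => ?_) k) j
      · simp only [Fin.cons_zero, Fin.cons_succ]
        exact ⟨horth _ hvS _ (hmem k).1, horth _ hvS _ (hmem k).2, horth _ hwS _ (hmem k).1,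
          horth _ hwS _ (hmem k).2⟩
      · simp only [Fin.cons_zero, Fin.cons_succ]
        exact ⟨hB.isRefl _ _ (horth _ hvS _ (hmem i).1), hB.isRefl _ _ (horth _ hwS _ (hmem i).1),
          hB.isRefl _ _ (horth _ hvS _ (hmem i).2), hB.isRefl _ _ (horth _ hwS _ (hmem i).2)⟩
      · simp only [Fin.cons_succ]
        exact ho i k fun e => h (by rw [e])

/-- A scalar plane for an involutory isometry. -/
theorem step_one (B : LinearMap.BilinForm F V) (h2 : (2 : F) ≠ 0) (T : V →ₗ[F] V)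
    (hTB : ∀ u v, B (T u) (T v) = B u v) (hT : ∀ v, T (T v) = v) (P : Submodule F V) (hPT : ∀ v ∈ P, T v ∈ P)
    (hP : H97.NondegOn B P) (hP0 : P ≠ ⊥) (l : F) (_hl : l ≠ 0) :
    ∃ v ∈ P, ∃ w ∈ P, B v w = l ∧ (∃ s : F, s * s = 1 ∧ T v = s • v ∧ T w = s • w) ∧
      T v ∈ Submodule.span F {v, w} ∧ T w ∈ Submodule.span F {v, w} := by
  obtain ⟨u, hu, hu0, s, hs, hTu⟩ : ∃ u ∈ P, u ≠ 0 ∧ ∃ s : F, s * s = 1 ∧ T u = s • u := by
    obtain ⟨y, hy, hy0⟩ := (Submodule.ne_bot_iff _).1 hP0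
    by_cases h : y + T y = 0
    · exact ⟨y, hy, hy0, -1, by ring, by rw [eq_neg_of_add_eq_zero_right h, neg_one_smul]⟩
    · exact ⟨_, P.add_mem hy (hPT y hy), h, 1, one_mul 1, by rw [map_add, hT, one_smul, add_comm]⟩
  obtain ⟨y, hy, hy0⟩ : ∃ y ∈ P, B u y ≠ 0 := by
    by_contra h
    push Not at h
    exact hu0 (hP u hu h)
  have hBT : B u (T y) = s * B u y := by
    have h1 := hTB u (T y)
    rw [hTu, hT, map_smul, LinearMap.smul_apply, smul_eq_mul] at h1
    exact h1.symm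
  let w := (l / (2 * B u y)) • (y + s • T y)
  have hval : B u w = l := by
    simp only [w, map_smul, map_add, smul_eq_mul, hBT]
    field_simp
    linear_combination hs
  have hTw : T w = s • w := by
    simp only [w, map_smul, map_add, hT, smul_add, smul_smul]
    rw [show s * (l / (2 * B u y) * s) = l / (2 * B u y) by linear_combination (l / (2 * B u y)) * hs,
      add_comm, mul_comm s]
  refine ⟨u, hu, w, P.smul_mem _ (P.add_mem hy (P.smul_mem _ (hPT y hy))), hval, ⟨s, hs, hTu, hTw⟩, ?_, ?_⟩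
  · rw [hTu]; exact Submodule.smul_mem _ _ (Submodule.subset_span (by simp))
  · rw [hTw]; exact Submodule.smul_mem _ _ (Submodule.subset_span (by simp))

/-- A cyclic plane for an isometry with square `-1`. -/
theorem step_neg_one [Fintype F] (hF : Fintype.card F % 2 = 1) (B : LinearMap.BilinForm F V) (hB : B.IsAlt)
    (h2 : (2 : F) ≠ 0) (T : V →ₗ[F] V)
    (hTB : ∀ u v, B (T u) (T v) = B u v) (hT : ∀ v, T (T v) = -v) (P : Submodule F V) (hPT : ∀ v ∈ P, T v ∈ P)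
    (hP : H97.NondegOn B P) (hP0 : P ≠ ⊥) (l : F) (_hl : l ≠ 0) :
    ∃ v ∈ P, ∃ w ∈ P, B v w = l ∧ (T v = w ∧ T w = -v) ∧
      T v ∈ Submodule.span F {v, w} ∧ T w ∈ Submodule.span F {v, w} := by
  have hsym : ∀ a b, B a (T b) = B b (T a) := fun a b => by
    have h := hTB a (T b)
    rw [hT, map_neg, hB.neg_eq] at h
    exact h.symm
  obtain ⟨y, hy, hy0⟩ : ∃ y ∈ P, B y (T y) ≠ 0 := by
    by_contra h
    push Not at h
    obtain ⟨y, hy, hy0⟩ := (Submodule.ne_bot_iff _).1 hP0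
    refine hy0 (hP y hy fun c hc => ?_)
    have h0 : ∀ b ∈ P, B y (T b) = 0 := fun b hb => by
      have h1 := h _ (P.add_mem hy hb)
      simp [h y hy, h b hb, hsym b y] at h1
      have h2' : (2 : F) * B y (T b) = 0 := by linear_combination h1
      exact (mul_eq_zero.1 h2').resolve_left h2
    have h1 := h0 _ (P.neg_mem (hPT c hc))
    rwa [map_neg, hT, neg_neg] at h1
  obtain ⟨s, t, hst⟩ : ∃ s t : F, s * s - (-1) * (t * t) = l / B y (T y) := by
    open Polynomial in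
    obtain ⟨s, t, h⟩ := FiniteField.exists_root_sum_quadratic (R := F) (f := X ^ 2)
      (g := X ^ 2 - C (l / B y (T y))) (degree_X_pow 2) (degree_X_pow_sub_C two_pos _) hF
    simp at h
    exact ⟨s, t, by linear_combination h⟩
  have hyy : B (T y) y = -B y (T y) := (hB.neg_eq y (T y)).symm
  let v := s • y + t • T y
  have hval : B v (T v) = l := by
    simp only [v, map_add, map_smul, hT, LinearMap.add_apply, LinearMap.smul_apply, smul_eq_mul, map_neg, hyy,
      hB y, hB (T y)]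
    have : (s * s - (-1) * (t * t)) * B y (T y) = l := by rw [hst, div_mul_cancel₀ _ hy0]
    linear_combination this
  have hv : v ∈ P := P.add_mem (P.smul_mem _ hy) (P.smul_mem _ (hPT y hy))
  refine ⟨v, hv, T v, hPT v hv, hval, ⟨rfl, hT v⟩, Submodule.subset_span (by simp), ?_⟩
  rw [hT]
  exact Submodule.neg_mem _ (Submodule.subset_span (by simp))

end Planes

section Tensor

variable {F : Type*} [Field F] {d a b : ℕ} {e : (Fin d ⊕ Fin d) ≃ Fin a × Fin b}

/-- The standard form through a matrix. -/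
theorem sympForm_mulVec (A : Matrix (Fin d ⊕ Fin d) (Fin d ⊕ Fin d) F) (p q : Fin d ⊕ Fin d) :
    Cfsg.sympForm d F (A *ᵥ Pi.single p 1) (A *ᵥ Pi.single q 1) = (Aᵀ * Matrix.J (Fin d) F * A) p q := by
  rw [Cfsg.sympForm, Matrix.mulVec_mulVec, Matrix.dotProduct_mulVec, Matrix.vecMul_mulVec, ← Matrix.mul_assoc]
  simp [Matrix.single_vecMul, dotProduct, Pi.single_apply]

/-- Membership in `spGL` by a matrix equation. -/
theorem mem_spGL_iff (g : GL (Fin d ⊕ Fin d) F) :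
    g ∈ Cfsg.spGL d F ↔ (g : Matrix (Fin d ⊕ Fin d) (Fin d ⊕ Fin d) F)ᵀ * Matrix.J (Fin d) F *
      (g : Matrix (Fin d ⊕ Fin d) (Fin d ⊕ Fin d) F) = Matrix.J (Fin d) F := by
  constructor
  · intro h
    ext p q
    have h1 : Cfsg.sympForm d F ((g : Matrix (Fin d ⊕ Fin d) (Fin d ⊕ Fin d) F) *ᵥ Pi.single p 1)
        ((g : Matrix (Fin d ⊕ Fin d) (Fin d ⊕ Fin d) F) *ᵥ Pi.single q 1) =
        Cfsg.sympForm d F (Pi.single p 1) (Pi.single q 1) := h _ _
    rw [sympForm_mulVec] at h1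
    rw [h1]
    simp [Cfsg.sympForm, dotProduct, Pi.single_apply]
  · intro h u v
    show Cfsg.sympForm d F ((g : Matrix (Fin d ⊕ Fin d) (Fin d ⊕ Fin d) F) *ᵥ u)
        ((g : Matrix (Fin d ⊕ Fin d) (Fin d ⊕ Fin d) F) *ᵥ v) = Cfsg.sympForm d F u v
    rw [Cfsg.sympForm, Cfsg.sympForm, Matrix.mulVec_mulVec, Matrix.dotProduct_mulVec, Matrix.vecMul_mulVec,
      ← Matrix.mul_assoc, h, ← Matrix.dotProduct_mulVec]

/-- The Gram matrix of the tensor structure. -/
theorem gram_of_structure {P : GL (Fin d ⊕ Fin d) F} {f₁ : (Fin a → F) → (Fin a → F) → F}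
    {f₂ : (Fin b → F) → (Fin b → F) → F}
    (hS : Cfsg.Geo.IsTensorFormStructure id (Cfsg.sympForm d F) f₁ f₂ e P) :
    ∃ c : F, c ≠ 0 ∧ (P : Matrix (Fin d ⊕ Fin d) (Fin d ⊕ Fin d) F)ᵀ * Matrix.J (Fin d) F *
        (P : Matrix (Fin d ⊕ Fin d) (Fin d ⊕ Fin d) F) =
      (c • (Cfsg.Geo.gramMatrix f₁ ⊗ₖ Cfsg.Geo.gramMatrix f₂)).submatrix e e := by
  obtain ⟨c, hc, h⟩ := hS
  refine ⟨c, hc, ?_⟩
  ext p q
  have h1 := h (Pi.single (e p) 1) (Pi.single (e q) 1)
  have hp : ∀ s, (Pi.single (e s) (1 : F) : Fin a × Fin b → F) ∘ e = Pi.single s 1 := fun s => by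
    funext t
    simp [Pi.single_apply]
  rw [hp, hp, sympForm_mulVec] at h1
  rw [h1]
  simp [Cfsg.Geo.formOfGram, Pi.single_apply]

/-- A fixed point gives a Kronecker product preserving the tensor form. -/
theorem exists_gram_invariant {x g P : GL (Fin d ⊕ Fin d) F} {K : Matrix (Fin a × Fin b) (Fin a × Fin b) F} {c : F}
    (hc : c ≠ 0) (hgram : (P : Matrix (Fin d ⊕ Fin d) (Fin d ⊕ Fin d) F)ᵀ * Matrix.J (Fin d) F *
      (P : Matrix (Fin d ⊕ Fin d) (Fin d ⊕ Fin d) F) = (c • K).submatrix e e)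
    (hx : x ∈ Cfsg.spGL d F) (hg : g ∈ Cfsg.spGL d F)
    (h : g⁻¹ * x * g ∈ Cfsg.Geo.tensorProductSubgroup a b e P) :
    ∃ (g₁ : GL (Fin a) F) (g₂ : GL (Fin b) F) (A : GL (Fin d ⊕ Fin d) F),
      (x : Matrix (Fin d ⊕ Fin d) (Fin d ⊕ Fin d) F) = (A : Matrix (Fin d ⊕ Fin d) (Fin d ⊕ Fin d) F) *
        ((g₁ : Matrix (Fin a) (Fin a) F) ⊗ₖ (g₂ : Matrix (Fin b) (Fin b) F)).submatrix e e *
        ((A⁻¹ : GL (Fin d ⊕ Fin d) F) : Matrix (Fin d ⊕ Fin d) (Fin d ⊕ Fin d) F) ∧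
      ((g₁ : Matrix (Fin a) (Fin a) F) ⊗ₖ (g₂ : Matrix (Fin b) (Fin b) F))ᵀ * K *
        ((g₁ : Matrix (Fin a) (Fin a) F) ⊗ₖ (g₂ : Matrix (Fin b) (Fin b) F)) = K := by
  obtain ⟨u, ⟨k, ⟨g₁, g₂, hk⟩, rfl⟩, hu⟩ := h
  have hy : ((g⁻¹ * x * g : GL (Fin d ⊕ Fin d) F) : Matrix (Fin d ⊕ Fin d) (Fin d ⊕ Fin d) F) =
      (P : Matrix (Fin d ⊕ Fin d) (Fin d ⊕ Fin d) F) *
        ((g₁ : Matrix (Fin a) (Fin a) F) ⊗ₖ (g₂ : Matrix (Fin b) (Fin b) F)).submatrix e e *
        ((P⁻¹ : GL (Fin d ⊕ Fin d) F) : Matrix (Fin d ⊕ Fin d) (Fin d ⊕ Fin d) F) := by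
    rw [← hu]
    simp [MulAut.conj_apply, Cfsg.Geo.glReindex, hk, Matrix.reindex_apply]
  refine ⟨g₁, g₂, g * P, ?_, ?_⟩
  · calc (x : Matrix (Fin d ⊕ Fin d) (Fin d ⊕ Fin d) F)
        = ((g * (g⁻¹ * x * g) * g⁻¹ : GL (Fin d ⊕ Fin d) F) : Matrix (Fin d ⊕ Fin d) (Fin d ⊕ Fin d) F) := by
          rw [show g * (g⁻¹ * x * g) * g⁻¹ = x by group]
      _ = _ := by
          rw [Units.val_mul, Units.val_mul, hy]
          simp [Matrix.mul_assoc]
  · set M := (g₁ : Matrix (Fin a) (Fin a) F) ⊗ₖ (g₂ : Matrix (Fin b) (Fin b) F)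
    set Pm := (P : Matrix (Fin d ⊕ Fin d) (Fin d ⊕ Fin d) F)
    have hm := (mem_spGL_iff _).1 (mul_mem (mul_mem (inv_mem hg) hx) hg)
    rw [hy] at hm
    set N := Pm * M.submatrix e e * ((P⁻¹ : GL (Fin d ⊕ Fin d) F) : Matrix (Fin d ⊕ Fin d) (Fin d ⊕ Fin d) F)
    have hN : N * Pm = Pm * M.submatrix e e := by
      simp only [N, Pm, Matrix.mul_assoc]
      rw [← Units.val_mul, inv_mul_cancel, Units.val_one, Matrix.mul_one]
    have h1 : (M.submatrix e e)ᵀ * (c • K).submatrix e e * M.submatrix e e = (c • K).submatrix e e := by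
      rw [← hgram]
      calc (M.submatrix e e)ᵀ * (Pmᵀ * Matrix.J (Fin d) F * Pm) * M.submatrix e e
          = (Pm * M.submatrix e e)ᵀ * Matrix.J (Fin d) F * (Pm * M.submatrix e e) := by
            rw [Matrix.transpose_mul]; simp only [Matrix.mul_assoc]
        _ = (N * Pm)ᵀ * Matrix.J (Fin d) F * (N * Pm) := by rw [hN]
        _ = Pmᵀ * (Nᵀ * Matrix.J (Fin d) F * N) * Pm := by
            rw [Matrix.transpose_mul]; simp only [Matrix.mul_assoc]
        _ = _ := by rw [hm]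
    rw [Matrix.transpose_submatrix, Matrix.submatrix_mul_equiv, Matrix.submatrix_mul_equiv] at h1
    have h2 : Mᵀ * (c • K) * M = c • K := by
      refine Matrix.ext fun p q => ?_
      simpa using congrFun (congrFun h1 (e.symm p)) (e.symm q)
    rw [Matrix.mul_smul, Matrix.smul_mul] at h2
    exact smul_right_injective _ hc h2

end Tensor

/-- A right factor preserving a symmetric form moves an even number of pieces of odd length. -/
theorem not_orth_moved_odd {F : Type u} [Field F] [Fintype F] {r b : ℕ} [Fact r.Prime] (hr : (r : F) ≠ 0)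
    (hr2 : r ≠ 2) (h2 : (2 : F) ≠ 0) (hodd : Odd (orderOf (Nat.card F : ZMod r)))
    (G : Matrix (Fin b) (Fin b) F) (hGs : Gᵀ = G) (hGd : G.det ≠ 0) (M : Matrix (Fin b) (Fin b) F)
    (hM : M ^ r = 1) (hMG : Mᵀ * G * M = G) :
    (M - (1 : F) • 1).rank ≠ orderOf (Nat.card F : ZMod r) := by
  intro hrk
  set B := Matrix.toBilin' G with hBdef
  have hBs : ∀ u v, B u v = B v u := fun u v => by
    rw [hBdef, Matrix.toBilin'_apply', Matrix.toBilin'_apply', Matrix.dotProduct_mulVec, ← Matrix.mulVec_transpose,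
      hGs, dotProduct_comm]
  set Q : QuadraticForm F (Fin b → F) := B.toQuadraticMap with hQdef
  have hpol : ∀ u v, QuadraticMap.polarBilin Q u v = 2 * B u v := fun u v => by
    rw [hQdef, LinearMap.BilinMap.polarBilin_toQuadraticMap, LinearMap.add_apply, LinearMap.add_apply,
      LinearMap.flip_apply, hBs v u]
    ring
  set T : End F (Fin b → F) := Matrix.toLinAlgEquiv' M with hTdef
  have hT : T ^ r = 1 := by rw [hTdef, ← map_pow, hM, map_one]
  have hTB : ∀ u v, B (T u) (T v) = B u v := fun u v => by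
    rw [hBdef, Matrix.toBilin'_apply', Matrix.toBilin'_apply']
    show (M *ᵥ u) ⬝ᵥ (G *ᵥ (M *ᵥ v)) = _
    rw [Matrix.mulVec_mulVec, Matrix.dotProduct_mulVec, Matrix.vecMul_mulVec, ← Matrix.mul_assoc, hMG,
      ← Matrix.dotProduct_mulVec]
  have hTQ : ∀ v, Q (T v) = Q v := fun v => by
    rw [hQdef, LinearMap.BilinMap.toQuadraticMap_apply, LinearMap.BilinMap.toQuadraticMap_apply, hTB]
  have hBn : B.Nondegenerate :=
    LinearMap.BilinForm.nondegenerate_toBilin'_iff_det_ne_zero.2 hGd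
  have htop : H97.NondegOn (QuadraticMap.polarBilin Q) (⊤ : Submodule F (Fin b → F)) := fun v _ hv =>
    hBn.1 v fun w => by
      have h := hv w Submodule.mem_top
      rw [hpol] at h
      exact (mul_eq_zero.1 h).resolve_left h2
  have href : LinearMap.IsRefl (QuadraticMap.polarBilin Q) := fun u v h => by
    rw [hpol] at h ⊢; rw [hBs]; exact h
  obtain ⟨-, hmn, -, -⟩ := H97.nondegOn_parts_refl hr href (fun u v => by rw [hpol, hpol, hTB]) hT
    (W := ⊤) le_top htop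
  rw [top_inf_eq] at hmn
  have hd := H97.dvd_finrank_orth_moved hr hr2 hTQ hT (H97.movedSpace_inv T) hmn le_rfl
  have he : (M - (1 : F) • 1).mulVecLin = T - 1 := by
    refine LinearMap.ext fun v => ?_
    simp [hTdef]
  rw [Matrix.rank, he] at hrk
  change finrank F (H97.movedSpace T) = _ at hrk
  rw [hrk] at hd
  obtain ⟨k, hk⟩ := hodd
  have := (Nat.dvd_lcm_left 2 _).trans hd
  omega

section Conj

variable {F : Type*} [Field F] [Fintype F] {d b : ℕ} {e : (Fin d ⊕ Fin d) ≃ Fin 2 × Fin b}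

/-- Symplectic square roots of scalars fix a tensor decomposition `Sp_2 ⊗ O_b`. -/
theorem exists_conj_mem (hF : Fintype.card F % 2 = 1) (h2 : (2 : F) ≠ 0) (hd : 0 < d)
    {P : GL (Fin d ⊕ Fin d) F}
    {f₁ : (Fin 2 → F) → (Fin 2 → F) → F} {f₂ : (Fin b → F) → (Fin b → F) → F}
    (hf₁ : Cfsg.Geo.IsSymplecticForm f₁) (hf₂ : Cfsg.Geo.IsSymmetricForm f₂)
    (hS : Cfsg.Geo.IsTensorFormStructure id (Cfsg.sympForm d F) f₁ f₂ e P)
    (x : GL (Fin d ⊕ Fin d) F) (hx : x ∈ Cfsg.spGL d F) {z : F}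
    (hz : ((x ^ 2 : GL (Fin d ⊕ Fin d) F) : Matrix (Fin d ⊕ Fin d) (Fin d ⊕ Fin d) F) = z • 1) :
    ∃ g ∈ Cfsg.spGL d F, g⁻¹ * x * g ∈ Cfsg.Geo.tensorProductSubgroup 2 b e P := by
  classical
  haveI : Invertible (2 : F) := invertibleOfNonzero h2
  obtain ⟨c, hc, hgram⟩ := gram_of_structure hS
  -- an orthogonal basis for the symmetric form
  let B₂ : LinearMap.BilinForm F (Fin b → F) := LinearMap.mk₂ F f₂ hf₂.bilinear.add_left
    hf₂.bilinear.smul_left hf₂.bilinear.add_right hf₂.bilinear.smul_right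
  have hB₂s : LinearMap.IsSymm B₂ := ⟨fun u v => hf₂.symm u v⟩
  obtain ⟨η₀, hη₀⟩ := LinearMap.BilinForm.exists_orthogonal_basis hB₂s
  let η : Basis (Fin b) F (Fin b → F) := η₀.reindex (finCongr (by rw [Module.finrank_fin_fun]))
  have hη : ∀ j k, j ≠ k → f₂ (η j) (η k) = 0 := fun j k h => by
    simp only [η, Basis.reindex_apply]
    exact hη₀ ((Equiv.injective _).ne h)
  let H : Matrix (Fin b) (Fin b) F := (Pi.basisFun F (Fin b)).toMatrix η
  let dd : Fin b → F := fun j => f₂ (η j) (η j)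
  have hHu : IsUnit H := by
    have := (Pi.basisFun F (Fin b)).invertibleToMatrix η
    exact isUnit_of_invertible H
  have hG₂ : Cfsg.Geo.gramMatrix f₂ = LinearMap.BilinForm.toMatrix (Pi.basisFun F (Fin b)) B₂ := by
    ext j k
    simp [Cfsg.Geo.gramMatrix, B₂, LinearMap.BilinForm.toMatrix_apply]
  have hHD : Hᵀ * Cfsg.Geo.gramMatrix f₂ * H = Matrix.diagonal dd := by
    rw [hG₂, LinearMap.BilinForm.toMatrix_mul_basis_toMatrix]
    ext j k
    by_cases h : j = k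
    · subst h; simp [LinearMap.BilinForm.toMatrix_apply, B₂, dd]
    · simp [LinearMap.BilinForm.toMatrix_apply, B₂, Matrix.diagonal_apply_ne _ h, hη j k h]
  have hdd : ∀ j, dd j ≠ 0 := by
    intro j h0
    obtain ⟨-, w, hw⟩ := hf₂.nondegenerate (η j) (η.ne_zero j)
    refine hw ?_
    have hl : B₂ (η j) = 0 := η.ext fun k => by
      by_cases hjk : j = k
      · subst hjk; exact h0
      · exact hη j k hjk
    exact LinearMap.congr_fun hl w
  set γ := f₁ (Pi.single 0 1) (Pi.single 1 1) with hγdef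
  have hG₁ : Cfsg.Geo.gramMatrix f₁ = !![0, γ; -γ, 0] := by
    ext i j
    fin_cases i <;> fin_cases j <;> simp [Cfsg.Geo.gramMatrix, hf₁.alternating, γ]
    rw [hf₁.skew]
  have hγ : γ ≠ 0 := by
    intro h0
    obtain ⟨-, w, hw⟩ := hf₁.nondegenerate (Pi.single 0 1) (by simp)
    refine hw ?_
    have : w = w 0 • Pi.single (0 : Fin 2) (1 : F) + w 1 • Pi.single 1 1 := by
      funext i; fin_cases i <;> simp
    rw [this, hf₁.bilinear.add_right, hf₁.bilinear.smul_right, hf₁.bilinear.smul_right, hf₁.alternating,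
      ← hγdef, h0]
    ring
  let l : Fin b → F := fun j => c * γ * dd j
  have hl : ∀ j, l j ≠ 0 := fun j => mul_ne_zero (mul_ne_zero hc hγ) (hdd j)
  set xm := (x : Matrix (Fin d ⊕ Fin d) (Fin d ⊕ Fin d) F) with hxm
  let x' : ↥(Matrix.symplecticGroup (Fin d) F) := ⟨xm, (H2.mem_symplecticGroup_iff).2 fun u v => hx u v⟩
  obtain ⟨hTB, hTT, hz0, hzz, hnd⟩ := H97.symplectic_square_setup hd x'
    (z := z) (by rw [pow_two, Submonoid.coe_mul]; rw [pow_two, Units.val_mul] at hz; exact hz)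
  set B := H2.sympBilin d F with hBdef
  have hBA : B.IsAlt := H2.sympBilin_isAlt d F
  set T := Matrix.toLin' xm with hTdef
  have hb : finrank F (⊤ : Submodule F (Fin d ⊕ Fin d → F)) = 2 * b := by
    rw [finrank_top, Module.finrank_fintype_fun_eq_card, Fintype.card_congr e, Fintype.card_prod, Fintype.card_fin,
      Fintype.card_fin]
  -- planes
  obtain ⟨C, S, v, w, hC, hS0, hvw, hval, hort⟩ : ∃ (C : Matrix (Fin 2) (Fin 2) F) (S : Fin b → F)
      (v w : Fin b → (Fin d ⊕ Fin d → F)), IsUnit C.det ∧ (∀ j, S j ≠ 0) ∧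
      (∀ j, T (v j) = S j • (C 0 0 • v j + C 1 0 • w j) ∧ T (w j) = S j • (C 0 1 • v j + C 1 1 • w j)) ∧
      (∀ j, B (v j) (w j) = l j) ∧
      ∀ j k, j ≠ k → B (v j) (v k) = 0 ∧ B (v j) (w k) = 0 ∧ B (w j) (v k) = 0 ∧ B (w j) (w k) = 0 := by
    rcases mul_self_eq_one_iff.1 hzz with h1 | h1
    · subst h1
      obtain ⟨v, w, -, hR, hval, hort⟩ := exists_planes B hBA T hTB hz0 hTT _
        (step_one B h2 T hTB (fun u => (hTT u).trans (one_smul F u))) b ⊤ (fun _ _ => Submodule.mem_top) hnd hb l hl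
      choose S hS hv hw using hR
      exact ⟨1, S, v, w, by simp, fun j h0 => by have := hS j; simp [h0] at this,
        fun j => ⟨by simpa using hv j, by simpa using hw j⟩, hval, hort⟩
    · subst h1
      obtain ⟨v, w, -, hR, hval, hort⟩ := exists_planes B hBA T hTB hz0 hTT _
        (step_neg_one hF B hBA h2 T hTB (fun u => (hTT u).trans (neg_one_smul F u))) b ⊤
        (fun _ _ => Submodule.mem_top) hnd hb l hl
      exact ⟨!![0, -1; 1, 0], fun _ => 1, v, w, by simp [Matrix.det_fin_two], fun _ => one_ne_zero,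
        fun j => ⟨by simpa using (hR j).1, by simpa using (hR j).2⟩, hval, hort⟩
  let col : Fin 2 × Fin b → (Fin d ⊕ Fin d → F) := fun p => if p.1 = 0 then v p.2 else w p.2
  let U : Matrix (Fin d ⊕ Fin d) (Fin d ⊕ Fin d) F := Matrix.of fun r q => col (e q) r
  set D := Matrix.diagonal S
  have hxU : xm * U = U * (C ⊗ₖ D).submatrix e e := by
    ext r q
    obtain ⟨⟨i, j⟩, rfl⟩ := e.symm.surjective q
    rw [Matrix.mul_apply, Matrix.mul_apply, ← e.symm.sum_comp (fun k => U r k * _)]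
    simp only [U, Matrix.of_apply, Matrix.submatrix_apply, Equiv.apply_symm_apply, Fintype.sum_prod_type,
      Fin.sum_univ_two, Matrix.kronecker_apply, D, Matrix.diagonal_apply, mul_ite, mul_zero, Finset.sum_ite_eq',
      Finset.mem_univ, if_true]
    show (xm *ᵥ col (i, j)) r = _
    rw [← Matrix.toLin'_apply, ← hTdef]
    fin_cases i
    · simp [col, (hvw j).1]; ring
    · simp [col, (hvw j).2]; ring
  let T₀ : Matrix (Fin d ⊕ Fin d) (Fin d ⊕ Fin d) F :=
    (P : Matrix (Fin d ⊕ Fin d) (Fin d ⊕ Fin d) F) * ((1 : Matrix (Fin 2) (Fin 2) F) ⊗ₖ H).submatrix e e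
  have hT₀ : T₀ᵀ * Matrix.J (Fin d) F * T₀ =
      (c • (Cfsg.Geo.gramMatrix f₁ ⊗ₖ Matrix.diagonal dd)).submatrix e e := by
    calc T₀ᵀ * Matrix.J (Fin d) F * T₀
        = (((1 : Matrix (Fin 2) (Fin 2) F) ⊗ₖ H).submatrix e e)ᵀ *
            ((P : Matrix (Fin d ⊕ Fin d) (Fin d ⊕ Fin d) F)ᵀ * Matrix.J (Fin d) F *
              (P : Matrix (Fin d ⊕ Fin d) (Fin d ⊕ Fin d) F)) *
            ((1 : Matrix (Fin 2) (Fin 2) F) ⊗ₖ H).submatrix e e := by
          simp only [T₀, Matrix.transpose_mul, Matrix.mul_assoc]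
      _ = _ := by
          rw [hgram, Matrix.transpose_submatrix, Matrix.submatrix_mul_equiv, Matrix.submatrix_mul_equiv,
            Matrix.mul_smul, Matrix.smul_mul, ← Matrix.kroneckerMap_transpose, Matrix.transpose_one,
            ← Matrix.mul_kronecker_mul, ← Matrix.mul_kronecker_mul, Matrix.one_mul, Matrix.mul_one, hHD]
  have hU : Uᵀ * Matrix.J (Fin d) F * U =
      (c • (Cfsg.Geo.gramMatrix f₁ ⊗ₖ Matrix.diagonal dd)).submatrix e e := by
    ext p q
    rw [← sympForm_mulVec, ← H2.sympBilin_apply, ← hBdef]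
    have hcol : ∀ s, U *ᵥ Pi.single s 1 = col (e s) := fun s => by
      funext r; simp [U, Matrix.mulVec, dotProduct, Pi.single_apply]
    rw [hcol, hcol, Matrix.submatrix_apply]
    obtain ⟨i, j⟩ := e p
    obtain ⟨i', k⟩ := e q
    simp only [Matrix.smul_apply, Matrix.kronecker_apply, smul_eq_mul, hG₁, col]
    by_cases hjk : j = k
    · subst hjk
      fin_cases i <;> fin_cases i' <;>
        simp [hBA (v j), hBA (w j), hval j, ← hBA.neg_eq (v j) (w j), l, mul_assoc, mul_comm, mul_left_comm]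
    · obtain ⟨o1, o2, o3, o4⟩ := hort j k hjk
      fin_cases i <;> fin_cases i' <;> simp [Matrix.diagonal_apply_ne _ hjk, o1, o2, o3, o4]
  have hHd : H.det ≠ 0 := ((Matrix.isUnit_iff_isUnit_det _).1 hHu).ne_zero
  have hT₀d : T₀.det ≠ 0 := by
    simp only [T₀, Matrix.det_mul, Matrix.det_submatrix_equiv_self, Matrix.det_kronecker, Matrix.det_one, one_pow,
      one_mul]
    exact mul_ne_zero ((Matrix.isUnit_iff_isUnit_det _).1 P.isUnit).ne_zero (pow_ne_zero _ hHd)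
  have hJd : (Matrix.J (Fin d) F).det ≠ 0 := (Matrix.isUnit_det_J (Fin d) F).ne_zero
  have hUd : U.det ≠ 0 := by
    intro h0
    have h1 := congrArg Matrix.det hU
    rw [← hT₀, Matrix.det_mul, Matrix.det_mul, h0, mul_zero, Matrix.det_mul, Matrix.det_mul,
      Matrix.det_transpose] at h1
    exact mul_ne_zero (mul_ne_zero hT₀d hJd) hT₀d h1.symm
  let Ug := Matrix.GeneralLinearGroup.mkOfDetNeZero U hUd
  let Tg := Matrix.GeneralLinearGroup.mkOfDetNeZero T₀ hT₀d
  refine ⟨Ug * Tg⁻¹, ?_, ?_⟩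
  · rw [mem_spGL_iff, Units.val_mul, Matrix.transpose_mul]
    set Ti := ((Tg⁻¹ : GL (Fin d ⊕ Fin d) F) : Matrix (Fin d ⊕ Fin d) (Fin d ⊕ Fin d) F)
    have hTi : T₀ * Ti = 1 := by rw [show T₀ * Ti = ((Tg * Tg⁻¹ : GL (Fin d ⊕ Fin d) F) : Matrix _ _ F) from rfl,
      mul_inv_cancel, Units.val_one]
    calc Tiᵀ * Uᵀ * Matrix.J (Fin d) F * (U * Ti) = Tiᵀ * (Uᵀ * Matrix.J (Fin d) F * U) * Ti := by
          simp only [Matrix.mul_assoc]
      _ = Tiᵀ * (T₀ᵀ * Matrix.J (Fin d) F * T₀) * Ti := by rw [hU, hT₀]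
      _ = (T₀ * Ti)ᵀ * Matrix.J (Fin d) F * (T₀ * Ti) := by
          rw [Matrix.transpose_mul T₀ Ti]; simp only [Matrix.mul_assoc]
      _ = _ := by rw [hTi]; simp
  · -- the conjugate is a Kronecker product
    have hHunit := hHu
    set Hu := hHunit.unit with hHudef
    set g₂m := H * D * ((Hu⁻¹ : (Matrix (Fin b) (Fin b) F)ˣ) : Matrix (Fin b) (Fin b) F) with hg₂m
    have hCu : IsUnit C := (Matrix.isUnit_iff_isUnit_det _).2 hC
    have hDu : IsUnit D := by
      rw [Matrix.isUnit_iff_isUnit_det, Matrix.det_diagonal, isUnit_iff_ne_zero, Finset.prod_ne_zero_iff]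
      exact fun j _ => hS0 j
    let G2 : GL (Fin b) F := Hu * hDu.unit * Hu⁻¹
    refine ⟨_, ⟨(((Matrix.isUnit_iff_isUnit_det (C ⊗ₖ (G2 : Matrix (Fin b) (Fin b) F))).2 (by
      rw [Matrix.det_kronecker]
      exact (hC.pow _).mul (((Matrix.isUnit_iff_isUnit_det _).1 G2.isUnit).pow _)))).unit,
      ⟨hCu.unit, G2, rfl⟩, rfl⟩, ?_⟩
    rw [MulEquiv.coe_toMonoidHom, MulAut.conj_apply]
    ext1
    have hK : (C ⊗ₖ (G2 : Matrix (Fin b) (Fin b) F)) * ((1 : Matrix (Fin 2) (Fin 2) F) ⊗ₖ H) =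
        ((1 : Matrix (Fin 2) (Fin 2) F) ⊗ₖ H) * (C ⊗ₖ D) := by
      rw [← Matrix.mul_kronecker_mul, ← Matrix.mul_kronecker_mul, Matrix.one_mul, Matrix.mul_one]
      congr 1
      show (((G2 * Hu) : GL (Fin b) F) : Matrix (Fin b) (Fin b) F) = _
      simp [G2, Hu]
    set Ti := ((Tg⁻¹ : GL (Fin d ⊕ Fin d) F) : Matrix (Fin d ⊕ Fin d) (Fin d ⊕ Fin d) F)
    set Pm := (P : Matrix (Fin d ⊕ Fin d) (Fin d ⊕ Fin d) F)
    set Pi' := ((P⁻¹ : GL (Fin d ⊕ Fin d) F) : Matrix (Fin d ⊕ Fin d) (Fin d ⊕ Fin d) F)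
    have hlhs : (((Ug * Tg⁻¹)⁻¹ * x * (Ug * Tg⁻¹) : GL (Fin d ⊕ Fin d) F) :
        Matrix (Fin d ⊕ Fin d) (Fin d ⊕ Fin d) F) = T₀ * (C ⊗ₖ D).submatrix e e * Ti := by
      rw [_root_.mul_inv_rev, inv_inv]
      calc _ = T₀ * (((Ug⁻¹ : GL (Fin d ⊕ Fin d) F) : Matrix (Fin d ⊕ Fin d) (Fin d ⊕ Fin d) F) * (xm * U)) * Ti := by
            simp [Ug, Tg, Ti, xm, Matrix.mul_assoc]
        _ = _ := by
            rw [hxU, ← Matrix.mul_assoc ((Ug⁻¹ : GL (Fin d ⊕ Fin d) F) : Matrix (Fin d ⊕ Fin d) (Fin d ⊕ Fin d) F) U,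
              show ((Ug⁻¹ : GL (Fin d ⊕ Fin d) F) : Matrix (Fin d ⊕ Fin d) (Fin d ⊕ Fin d) F) * U =
                ((Ug⁻¹ * Ug : GL (Fin d ⊕ Fin d) F) : Matrix _ _ F) from rfl,
              inv_mul_cancel, Units.val_one, Matrix.one_mul]
    rw [hlhs]
    have hPi : Pi' * T₀ = ((1 : Matrix (Fin 2) (Fin 2) F) ⊗ₖ H).submatrix e e := by
      simp only [T₀, ← Matrix.mul_assoc, Pi', ← Units.val_mul, inv_mul_cancel, Units.val_one, Matrix.one_mul]
    have hTi : T₀ * Ti = 1 := by rw [show T₀ * Ti = ((Tg * Tg⁻¹ : GL (Fin d ⊕ Fin d) F) : Matrix _ _ F) from rfl,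
      mul_inv_cancel, Units.val_one]
    simp only [Units.val_mul, Cfsg.Geo.glReindex, MulEquiv.coe_toMonoidHom, Units.coe_mapEquiv,
      IsUnit.unit_spec]
    show Pm * ((C ⊗ₖ (G2 : Matrix (Fin b) (Fin b) F))).submatrix e.symm.symm e.symm.symm * Pi' = _
    rw [Equiv.symm_symm]
    calc Pm * (C ⊗ₖ (G2 : Matrix (Fin b) (Fin b) F)).submatrix e e * Pi'
        = Pm * (C ⊗ₖ (G2 : Matrix (Fin b) (Fin b) F)).submatrix e e * (Pi' * T₀) * Ti := by
          rw [Matrix.mul_assoc (Pm * _) (Pi' * T₀), Matrix.mul_assoc Pi', hTi, Matrix.mul_one]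
      _ = _ := by
          rw [hPi, Matrix.mul_assoc Pm, Matrix.submatrix_mul_equiv, hK, ← Matrix.submatrix_mul_equiv _ _ e e e]
          simp only [T₀, Matrix.mul_assoc]
          rfl

end Conj

end Cfsg.Agent.H19.SympTensor
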