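import Mathlib
import Cfsg.Agent.H19.SympTensor

/-! Small symplectic matrices of prime order modulo scalars. -/

set_option autoImplicit false

namespace Cfsg.Agent.H19.SympElem

open Matrix Module

variable {F : Type*} [Field F] {d : ℕ}

/-- The rank of a block diagonal matrix. -/
theorem rank_blocks {l m : ℕ} (A : Matrix (Fin l) (Fin l) F) (D : Matrix (Fin m) (Fin m) F) :
    (fromBlocks A 0 0 D).rank = A.rank + D.rank := by
  have h : LinearMap.range (fromBlocks A 0 0 D).mulVecLin =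
      ((LinearMap.range A.mulVecLin).prod (LinearMap.range D.mulVecLin)).map
        (LinearEquiv.sumArrowLequivProdArrow (Fin l) (Fin m) F F).symm.toLinearMap := by
    apply le_antisymm
    · rintro _ ⟨v, rfl⟩
      refine ⟨(A *ᵥ (v ∘ Sum.inl), D *ᵥ (v ∘ Sum.inr)), ⟨⟨_, rfl⟩, ⟨_, rfl⟩⟩, funext fun s => ?_⟩
      rcases s with s | s <;> simp [Matrix.fromBlocks_mulVec]
    · rintro _ ⟨⟨_, _⟩, ⟨⟨u, rfl⟩, ⟨w, rfl⟩⟩, rfl⟩
      refine ⟨Sum.elim u w, funext fun s => ?_⟩
      rcases s with s | s <;> simp [Matrix.fromBlocks_mulVec]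
  rw [Matrix.rank, h, LinearEquiv.finrank_map_eq, Matrix.rank, Matrix.rank]
  let e : ↥((LinearMap.range A.mulVecLin).prod (LinearMap.range D.mulVecLin)) ≃ₗ[F]
      LinearMap.range A.mulVecLin × LinearMap.range D.mulVecLin :=
    { toFun := fun x => (⟨x.1.1, x.2.1⟩, ⟨x.1.2, x.2.2⟩)
      map_add' := fun x y => rfl
      map_smul' := fun c x => rfl
      invFun := fun y => ⟨(y.1, y.2), y.1.2, y.2.2⟩
      left_inv := fun x => rfl
      right_inv := fun y => rfl }
  rw [e.finrank_eq, Module.finrank_prod]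

/-- Block diagonal symplectic matrices. -/
theorem blocks_mem (g : GL (Fin d ⊕ Fin d) F) {A D : Matrix (Fin d) (Fin d) F}
    (hg : (g : Matrix (Fin d ⊕ Fin d) (Fin d ⊕ Fin d) F) = fromBlocks A 0 0 D) (h : Aᵀ * D = 1) :
    g ∈ Cfsg.spGL d F := by
  rw [SympTensor.mem_spGL_iff, hg, fromBlocks_transpose, Matrix.J, fromBlocks_multiply, fromBlocks_multiply]
  have h' : Dᵀ * A = 1 := by rw [← Matrix.transpose_transpose (Dᵀ * A), Matrix.transpose_mul,
    Matrix.transpose_transpose, h, Matrix.transpose_one]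
  simp [h, h']

/-- The transvection `1 + E` along a symmetric block. -/
theorem shear_mem (g : GL (Fin d ⊕ Fin d) F) {B : Matrix (Fin d) (Fin d) F}
    (hg : (g : Matrix (Fin d ⊕ Fin d) (Fin d ⊕ Fin d) F) = fromBlocks 1 B 0 1) (h : Bᵀ = B) :
    g ∈ Cfsg.spGL d F := by
  rw [SympTensor.mem_spGL_iff, hg, fromBlocks_transpose, Matrix.J, fromBlocks_multiply, fromBlocks_multiply]
  simp [h]

/-- Powers of block diagonal matrices. -/
theorem blocks_pow {l m : Type*} [Fintype l] [Fintype m] [DecidableEq l] [DecidableEq m]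
    (A : Matrix l l F) (D : Matrix m m F) (k : ℕ) :
    (fromBlocks A 0 0 D) ^ k = fromBlocks (A ^ k) 0 0 (D ^ k) := by
  induction k with
  | zero => simp
  | succ k ih => rw [pow_succ, ih, fromBlocks_multiply, pow_succ, pow_succ]; simp

/-- A shear along one coordinate differs from `1` by rank at most one. -/
theorem rank_shear_sub_one_le (i : Fin d) :
    (fromBlocks (1 : Matrix (Fin d) (Fin d) F) (Matrix.single i i 1) (0 : Matrix (Fin d) (Fin d) F)
      (1 : Matrix (Fin d) (Fin d) F) - 1).rank ≤ 1 := by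
  have h : fromBlocks (1 : Matrix (Fin d) (Fin d) F) (Matrix.single i i 1) (0 : Matrix (Fin d) (Fin d) F)
      (1 : Matrix (Fin d) (Fin d) F) - 1 = Matrix.vecMulVec (Pi.single (Sum.inl i) 1) (Pi.single (Sum.inr i) 1) := by
    ext (s | s) (t | t) <;> simp [Matrix.vecMulVec, Matrix.single_apply, Pi.single_apply, Matrix.one_apply, eq_comm]
    all_goals split_ifs <;> simp_all
    all_goals (rename_i h1 h2; obtain ⟨rfl, rfl⟩ := h2; exact h1 rfl)
  rw [h]
  exact Matrix.rank_vecMulVec_le _ _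

end Cfsg.Agent.H19.SympElem
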