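import Mathlib

/-! `-1` as an `n`th power, and orders of `q` modulo primes dividing `|GL_n(q)|`. -/

set_option autoImplicit false

namespace Cfsg.Agent.H19.TensorArith

variable {F : Type*} [Field F]

/-- If `(q - 1)_2 ≤ n_2` then `-1` is no `n`th power. -/
theorem pow_ne_neg_one [Fintype F] (hF : Odd (Fintype.card F)) (n : ℕ)
    (h : padicValNat 2 (Fintype.card F - 1) ≤ padicValNat 2 n) (w : F) : w ^ n ≠ -1 := by
  intro hw
  have hneq : (-1 : F) ≠ 1 := by
    intro e
    have h2 : (2 : F) = 0 := by linear_combination -e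
    have hr : ringChar F = 2 := CharP.ringChar_of_prime_eq_zero Nat.prime_two (by exact_mod_cast h2)
    have := (FiniteField.even_card_iff_char_two (F := F)).1 hr
    obtain ⟨c, hc⟩ := hF
    omega
  have hq2 : 2 ≤ Fintype.card F := Fintype.one_lt_card
  rcases Nat.eq_zero_or_pos n with h0 | hn
  · subst h0; rw [pow_zero] at hw; exact hneq hw.symm
  have hw0 : w ≠ 0 := by
    intro h0
    rw [h0, zero_pow hn.ne'] at hw
    exact one_ne_zero (neg_eq_zero.1 hw.symm)
  set s := padicValNat 2 (Fintype.card F - 1)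
  obtain ⟨u, hu⟩ : 2 ^ s ∣ Fintype.card F - 1 := pow_padicValNat_dvd
  obtain ⟨m, hm⟩ : 2 ^ s ∣ n := (Nat.pow_dvd_pow 2 h).trans pow_padicValNat_dvd
  have huo : Odd u := by
    rw [← Nat.not_even_iff_odd]
    rintro ⟨k, rfl⟩
    exact pow_succ_padicValNat_not_dvd (p := 2) (n := Fintype.card F - 1) (by omega)
      ⟨k, by show _ = 2 ^ (s + 1) * k; rw [pow_succ]; linarith⟩
  have h1 : (w ^ n) ^ u = 1 := by
    rw [← pow_mul, hm, mul_right_comm, ← hu, pow_mul, FiniteField.pow_card_sub_one_eq_one w hw0, one_pow]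
  rw [hw, huo.neg_one_pow] at h1
  exact hneq h1

/-- If `n_2 < (q - 1)_2` then `-1` is an `n`th power. -/
theorem exists_pow_eq_neg_one [Fintype F] {n : ℕ} (hn : 0 < n)
    (hcon : padicValNat 2 n < padicValNat 2 (Fintype.card F - 1)) : ∃ l : F, l ^ n = -1 := by
  classical
  set a := padicValNat 2 n with ha
  set s := padicValNat 2 (Fintype.card F - 1) with hs
  have hq2 : 2 ≤ Fintype.card F := Fintype.one_lt_card
  obtain ⟨t, ht⟩ : 2 ^ s ∣ Fintype.card F - 1 := pow_padicValNat_dvd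
  obtain ⟨n', hn'⟩ : 2 ^ a ∣ n := pow_padicValNat_dvd
  have hn'odd : Odd n' := by
    rw [← Nat.not_even_iff_odd]
    rintro ⟨k, rfl⟩
    exact pow_succ_padicValNat_not_dvd (p := 2) (n := n) (by omega) ⟨k, by rw [← ha, pow_succ]; linarith⟩
  obtain ⟨g, hg⟩ := IsCyclic.exists_generator (α := Fˣ)
  have hord : orderOf g = Fintype.card F - 1 := by
    rw [orderOf_eq_card_of_forall_mem_zpowers hg, Nat.card_eq_fintype_card, Fintype.card_units]
  have ht0 : 0 < t := by
    rcases Nat.eq_zero_or_pos t with h | h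
    · subst h; omega
    · exact h
  have hgm : (g : F) ^ (2 ^ (s - 1) * t) = -1 := by
    have hlt : 2 ^ (s - 1) * t < orderOf g := by
      rw [hord, ht]
      exact Nat.mul_lt_mul_of_pos_right (Nat.pow_lt_pow_right (by norm_num) (by omega)) ht0
    refine (sq_eq_one_iff.1 ?_).resolve_left fun h1 => ?_
    · rw [← pow_mul, mul_right_comm, ← pow_succ, Nat.sub_add_cancel (by omega), ← ht, ← hord,
        ← Units.val_pow_eq_pow_val, pow_orderOf_eq_one, Units.val_one]
    · have h2 : g ^ (2 ^ (s - 1) * t) = 1 := Units.ext (by rw [Units.val_pow_eq_pow_val, h1, Units.val_one])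
      exact pow_ne_one_of_lt_orderOf (Nat.mul_pos (by positivity) ht0).ne' hlt h2
  refine ⟨(g : F) ^ (2 ^ (s - 1 - a) * t), ?_⟩
  rw [← pow_mul, hn', show 2 ^ (s - 1 - a) * t * (2 ^ a * n') = 2 ^ (s - 1) * t * n' by
    rw [show s - 1 = (s - 1 - a) + a by omega, pow_add]; simp only [Nat.add_sub_cancel]; ring,
    pow_mul, hgm, hn'odd.neg_one_pow]

/-- A prime other than the characteristic dividing `|GL_n(q)|` has `ord_r q ≤ n`. -/
theorem orderOf_le_of_dvd_card [Finite F] {r n : ℕ} [Fact r.Prime] (hr : (Nat.card F : ZMod r) ≠ 0)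
    (h : r ∣ Nat.card (GL (Fin n) F)) : orderOf (Nat.card F : ZMod r) ≤ n := by
  haveI := Fintype.ofFinite F
  rw [Matrix.card_GL_field, ← Nat.card_eq_fintype_card] at h
  obtain ⟨j, -, hj⟩ := (Fact.out : r.Prime).prime.exists_mem_finset_dvd h
  have hjn := j.2
  have hq : 1 ≤ Nat.card F := Nat.card_pos
  have h1 : ((Nat.card F ^ n : ℕ) : ZMod r) = ((Nat.card F ^ (j : ℕ) : ℕ) : ZMod r) := by
    rw [ZMod.natCast_eq_natCast_iff]
    exact ((Nat.modEq_iff_dvd' (Nat.pow_le_pow_right hq hjn.le)).2 hj).symm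
  have h2 : (Nat.card F : ZMod r) ^ n = (Nat.card F : ZMod r) ^ (n - (j : ℕ)) * (Nat.card F : ZMod r) ^ (j : ℕ) := by
    rw [← pow_add, Nat.sub_add_cancel hjn.le]
  rw [Nat.cast_pow, Nat.cast_pow, h2, mul_eq_right₀ (pow_ne_zero _ hr)] at h1
  exact (orderOf_le_of_pow_eq_one (by omega) h1).trans (Nat.sub_le _ _)

end Cfsg.Agent.H19.TensorArith
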