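import Mathlib
import Cfsg.Agent.H19.TensorRank

/-! Square roots of scalars as Kronecker products with a two-dimensional factor. -/

set_option autoImplicit false

namespace Cfsg.Agent.H19.TensorConj

open Matrix Module
open scoped Kronecker

variable {F : Type*} [Field F]

/-- A matrix with `x ^ 2 = w ^ 2` diagonalises with eigenvalues `w` and `-w`. -/
theorem exists_diag {n : ℕ} (x : Matrix (Fin n) (Fin n) F) {w : F} (hw : w ≠ 0) (h2 : (2 : F) ≠ 0)
    (hx : x * x = (w * w) • 1) :
    ∃ (l k : ℕ) (f : Fin n ≃ Fin l ⊕ Fin k) (A : GL (Fin n) F),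
      x * (A : Matrix (Fin n) (Fin n) F) =
        (A : Matrix (Fin n) (Fin n) F) * Matrix.diagonal fun i => Sum.elim (fun _ => w) (fun _ => -w) (f i) := by
  classical
  set P := LinearMap.ker (Matrix.toLin' x - w • 1) with hP
  set M := LinearMap.ker (Matrix.toLin' x + w • 1) with hM
  have hxx : ∀ v, x *ᵥ (x *ᵥ v) = (w * w) • v := fun v => by
    rw [Matrix.mulVec_mulVec, hx, Matrix.smul_mulVec, Matrix.one_mulVec]
  have memP : ∀ v, v ∈ P ↔ x *ᵥ v = w • v := fun v => by
    simp [hP, sub_eq_zero]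
  have memM : ∀ v, v ∈ M ↔ x *ᵥ v = -(w • v) := fun v => by
    simp [hM, add_eq_zero_iff_eq_neg]
  have hc : IsCompl P M := by
    refine ⟨Submodule.disjoint_def.2 fun v hv hv' => ?_, codisjoint_iff.2 (Submodule.eq_top_iff'.2 fun v => ?_)⟩
    · have h := ((memP v).1 hv).symm.trans ((memM v).1 hv')
      have h' : (2 * w) • v = 0 := by
        rw [mul_smul, two_smul]; exact eq_neg_iff_add_eq_zero.1 h
      exact (smul_eq_zero.1 h').resolve_left (mul_ne_zero h2 hw)
    · refine Submodule.mem_sup.2 ⟨(2 * w)⁻¹ • (x *ᵥ v + w • v), P.smul_mem _ ((memP _).2 ?_),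
        (2 * w)⁻¹ • (w • v - x *ᵥ v), M.smul_mem _ ((memM _).2 ?_), ?_⟩
      · rw [Matrix.mulVec_add, Matrix.mulVec_smul, hxx, smul_add, smul_smul]; abel
      · rw [Matrix.mulVec_sub, Matrix.mulVec_smul, hxx, smul_sub, smul_smul]; abel
      · rw [← smul_add]
        have : x *ᵥ v + w • v + (w • v - x *ᵥ v) = (2 * w) • v := by rw [mul_smul, two_smul]; abel
        rw [this, smul_smul, inv_mul_cancel₀ (mul_ne_zero h2 hw), one_smul]
  let bs : Basis (Fin (finrank F P) ⊕ Fin (finrank F M)) F (Fin n → F) :=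
    ((finBasis F P).prod (finBasis F M)).map (Submodule.prodEquivOfIsCompl P M hc)
  have hcard : n = finrank F P + finrank F M := by
    rw [Submodule.finrank_add_eq_of_isCompl hc, Module.finrank_fin_fun]
  let f : Fin n ≃ Fin (finrank F P) ⊕ Fin (finrank F M) := (finCongr hcard).trans finSumFinEquiv.symm
  let bs' : Basis (Fin n) F (Fin n → F) := bs.reindex f.symm
  let A0 : Matrix (Fin n) (Fin n) F := (Pi.basisFun F (Fin n)).toMatrix bs'
  have hA0 : IsUnit A0 := by
    have := (Pi.basisFun F (Fin n)).invertibleToMatrix bs'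
    exact isUnit_of_invertible A0
  refine ⟨_, _, f, hA0.unit, ?_⟩
  have hcol : ∀ i, x *ᵥ bs' i = Sum.elim (fun _ => w) (fun _ => -w) (f i) • bs' i := by
    intro i
    simp only [bs', bs, Basis.reindex_apply, Equiv.symm_symm, Basis.map_apply]
    rcases f i with j | j
    · have hj := (memP _).1 (finBasis F P j).2
      simpa [Submodule.coe_prodEquivOfIsCompl'] using hj
    · have hj := (memM _).1 (finBasis F M j).2
      simpa [Submodule.coe_prodEquivOfIsCompl'] using hj
  ext i j
  have h1 := congrFun (hcol j) i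
  rw [IsUnit.unit_spec, Matrix.mul_diagonal]
  simp only [A0, Basis.toMatrix_apply, Pi.basisFun_repr]
  rw [Pi.smul_apply, smul_eq_mul, mul_comm] at h1
  rw [← h1]
  simp [Matrix.mul_apply, Matrix.mulVec, dotProduct, A0, Basis.toMatrix_apply]

/-- Vectors `v j` such that all `v j`, `T (v j)` are independent. -/
theorem exists_pairs {V : Type*} [AddCommGroup V] [Module F V] [FiniteDimensional F V] (T : End F V) {z : F}
    (hz : ∀ w : F, w * w ≠ z) (hT : ∀ v, T (T v) = z • v) :
    ∀ m : ℕ, 2 * m ≤ finrank F V → ∃ v : Fin m → V, ∀ c d : Fin m → F,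
      ∑ j, (c j • v j + d j • T (v j)) = 0 → c = 0 ∧ d = 0 := by
  intro m
  induction m with
  | zero => exact fun _ => ⟨Fin.elim0, fun c d _ => ⟨Subsingleton.elim _ _, Subsingleton.elim _ _⟩⟩
  | succ m ih =>
    intro hm
    obtain ⟨v, hv⟩ := ih (by omega)
    set S := Submodule.span F (Set.range (Sum.elim v fun j => T (v j))) with hS
    have hdim : finrank F S ≤ m + m := (finrank_range_le_card _).trans (by simp)
    obtain ⟨u, -, hu⟩ := SetLike.exists_of_lt (lt_top_iff_ne_top.2 fun h => by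
      rw [h, finrank_top] at hdim; omega : S < ⊤)
    have hmemv : ∀ j, v j ∈ S := fun j => Submodule.subset_span ⟨Sum.inl j, rfl⟩
    have hmemT : ∀ j, T (v j) ∈ S := fun j => Submodule.subset_span ⟨Sum.inr j, rfl⟩
    have hinv : ∀ y ∈ S, T y ∈ S := by
      intro y hy
      have : S ≤ S.comap T := by
        rw [hS, Submodule.span_le]
        rintro _ ⟨j | j, rfl⟩
        · exact hmemT j
        · show T (T (v j)) ∈ S
          rw [hT]; exact S.smul_mem _ (hmemv j)
      exact this hy
    refine ⟨Fin.snoc v u, fun c d h => ?_⟩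
    rw [Fin.sum_univ_castSucc] at h
    simp only [Fin.snoc_castSucc, Fin.snoc_last] at h
    set cl := c (Fin.last m)
    set dl := d (Fin.last m)
    have hmem : cl • u + dl • T u ∈ S := by
      rw [(eq_neg_iff_add_eq_zero.2 (by rw [add_comm]; exact h) : cl • u + dl • T u = -_)]
      exact S.neg_mem (S.sum_mem fun j _ => S.add_mem (S.smul_mem _ (hmemv j)) (S.smul_mem _ (hmemT j)))
    have hcd : cl * cl - dl * dl * z = 0 := by
      by_contra hne
      have h1 : cl • (cl • u + dl • T u) - dl • T (cl • u + dl • T u) = (cl * cl - dl * dl * z) • u := by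
        rw [map_add, map_smul, map_smul, hT]; module
      have h2 : (cl * cl - dl * dl * z) • u ∈ S :=
        h1 ▸ S.sub_mem (S.smul_mem _ hmem) (S.smul_mem _ (hinv _ hmem))
      exact hu ((S.smul_mem_iff hne).1 h2)
    have hd0 : dl = 0 := by
      by_contra hne
      refine hz (cl / dl) ?_
      field_simp
      linear_combination hcd
    have hc0 : cl = 0 := by
      rw [hd0] at hcd
      simpa using hcd
    rw [hc0, hd0, zero_smul, zero_smul, add_zero, add_zero] at h
    obtain ⟨hc', hd'⟩ := hv _ _ h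
    exact ⟨funext (Fin.lastCases hc0 fun j => congrFun hc' j), funext (Fin.lastCases hd0 fun j => congrFun hd' j)⟩

variable {n b : ℕ} {e : Fin n ≃ Fin 2 × Fin b}

/-- A matrix with non-square scalar square is a Kronecker product with the identity. -/
theorem exists_companion_kron (x : Matrix (Fin n) (Fin n) F) {z : F} (hz : ∀ w : F, w * w ≠ z)
    (hx : x * x = z • 1) (hn : n = 2 * b) :
    ∃ A : GL (Fin n) F, x * (A : Matrix (Fin n) (Fin n) F) =
      (A : Matrix (Fin n) (Fin n) F) *
        ((!![0, z; 1, 0] : Matrix (Fin 2) (Fin 2) F) ⊗ₖ (1 : Matrix (Fin b) (Fin b) F)).submatrix e e := by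
  classical
  have hxx : ∀ v, x *ᵥ (x *ᵥ v) = z • v := fun v => by
    rw [Matrix.mulVec_mulVec, hx, Matrix.smul_mulVec, Matrix.one_mulVec]
  obtain ⟨v, hv⟩ := exists_pairs (Matrix.toLin' x) hz (fun u => by simp only [Matrix.toLin'_apply]; exact hxx u) b
    (by rw [Module.finrank_fin_fun]; omega)
  let col : Fin 2 × Fin b → (Fin n → F) := fun p => if p.1 = 0 then v p.2 else x *ᵥ v p.2
  let A0 : Matrix (Fin n) (Fin n) F := Matrix.of fun r c => col (e c) r
  have hA0 : IsUnit A0 := by
    rw [← Matrix.linearIndependent_cols_iff_isUnit, Fintype.linearIndependent_iff]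
    intro g hg
    have h1 : ∑ j, (g (e.symm (0, j)) • v j + g (e.symm (1, j)) • Matrix.toLin' x (v j)) = 0 := by
      rw [← hg, ← e.symm.sum_comp, Fintype.sum_prod_type, Fin.sum_univ_two, ← Finset.sum_add_distrib]
      refine Finset.sum_congr rfl fun j _ => ?_
      congr 1 <;> · congr 1; funext r; simp [A0, col]
    obtain ⟨hc, hd⟩ := hv _ _ h1
    intro i
    obtain ⟨⟨p, j⟩, rfl⟩ := e.symm.surjective i
    fin_cases p
    · exact congrFun hc j
    · exact congrFun hd j
  refine ⟨hA0.unit, ?_⟩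
  rw [IsUnit.unit_spec]
  ext r c
  obtain ⟨⟨p, j⟩, rfl⟩ := e.symm.surjective c
  rw [Matrix.mul_apply, Matrix.mul_apply, ← e.symm.sum_comp, ← e.symm.sum_comp (fun k => A0 r k * _)]
  simp only [Fintype.sum_prod_type, Fin.sum_univ_two, Matrix.submatrix_apply, Equiv.apply_symm_apply,
    Matrix.kronecker_apply, Matrix.one_apply, mul_ite, mul_one, mul_zero, Finset.sum_ite_eq', Finset.mem_univ,
    if_true, A0, Matrix.of_apply]
  have hsum : ∀ u : Fin n → F, (∑ j', x r (e.symm (0, j')) * u (e.symm (0, j'))) +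
      ∑ j', x r (e.symm (1, j')) * u (e.symm (1, j')) = (x *ᵥ u) r := fun u => by
    rw [Matrix.mulVec, dotProduct, ← e.symm.sum_comp, Fintype.sum_prod_type, Fin.sum_univ_two]
  rw [hsum]
  fin_cases p
  · simp [col]
  · simp [col, hxx, mul_comm]

/-- Adjusting the determinant of a conjugating matrix. -/
theorem exists_special {a' b' : ℕ} {e : Fin n ≃ Fin a' × Fin b'} {x : GL (Fin n) F} (P : GL (Fin n) F)
    (g₁ : GL (Fin a') F) (g₂ : GL (Fin b') F) (A : GL (Fin n) F)
    (hA : (x : Matrix (Fin n) (Fin n) F) * (A : Matrix (Fin n) (Fin n) F) = (A : Matrix (Fin n) (Fin n) F) *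
      ((g₁ : Matrix (Fin a') (Fin a') F) ⊗ₖ (g₂ : Matrix (Fin b') (Fin b') F)).submatrix e e)
    (hadj : ∀ δ : F, δ ≠ 0 → ∃ M : Matrix (Fin a' × Fin b') (Fin a' × Fin b') F, M.det = δ ∧
      M * ((g₁ : Matrix (Fin a') (Fin a') F) ⊗ₖ (g₂ : Matrix (Fin b') (Fin b') F)) =
        ((g₁ : Matrix (Fin a') (Fin a') F) ⊗ₖ (g₂ : Matrix (Fin b') (Fin b') F)) * M) :
    ∃ g ∈ Cfsg.Geo.specialLinear (Fin n) F, g⁻¹ * x * g ∈ Cfsg.Geo.tensorProductSubgroup a' b' e P := by
  classical
  set K := (g₁ : Matrix (Fin a') (Fin a') F) ⊗ₖ (g₂ : Matrix (Fin b') (Fin b') F)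
  have hdA : (A : Matrix (Fin n) (Fin n) F).det ≠ 0 := ((Matrix.isUnit_iff_isUnit_det _).1 A.isUnit).ne_zero
  have hdP : (P : Matrix (Fin n) (Fin n) F).det ≠ 0 := ((Matrix.isUnit_iff_isUnit_det _).1 P.isUnit).ne_zero
  obtain ⟨M, hMd, hMK⟩ := hadj _ (div_ne_zero hdP hdA)
  have hMu : IsUnit (M.submatrix e e) := by
    rw [Matrix.isUnit_iff_isUnit_det, Matrix.det_submatrix_equiv_self, hMd]
    exact isUnit_iff_ne_zero.2 (div_ne_zero hdP hdA)
  set B : GL (Fin n) F := A * hMu.unit with hB
  have hBK : (x : Matrix (Fin n) (Fin n) F) * (B : Matrix (Fin n) (Fin n) F) =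
      (B : Matrix (Fin n) (Fin n) F) * K.submatrix e e := by
    rw [hB, Units.val_mul, IsUnit.unit_spec, ← Matrix.mul_assoc, hA, Matrix.mul_assoc, Matrix.mul_assoc,
      Matrix.submatrix_mul_equiv, Matrix.submatrix_mul_equiv, hMK]
  refine ⟨B * P⁻¹, ?_, (TensorRank.mem_tensor_iff P _).2 ⟨g₁, g₂, ?_⟩⟩
  · rw [Cfsg.Geo.specialLinear, MonoidHom.mem_ker]
    ext
    rw [map_mul, map_inv, Units.val_mul, Units.val_inv_eq_inv_val, Units.val_one]
    simp only [Matrix.GeneralLinearGroup.val_det_apply, hB, Units.val_mul, Matrix.det_mul, IsUnit.unit_spec,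
      Matrix.det_submatrix_equiv_self, hMd]
    field_simp
  · calc ((((B * P⁻¹)⁻¹ * x * (B * P⁻¹) : GL (Fin n) F)) : Matrix (Fin n) (Fin n) F)
        = (P : Matrix (Fin n) (Fin n) F) * (((B⁻¹ : GL (Fin n) F) : Matrix (Fin n) (Fin n) F) *
            ((x : Matrix (Fin n) (Fin n) F) * (B : Matrix (Fin n) (Fin n) F))) *
            ((P⁻¹ : GL (Fin n) F) : Matrix (Fin n) (Fin n) F) := by
          simp [Matrix.mul_assoc]
      _ = _ := by
          rw [hBK, ← Matrix.mul_assoc ((B⁻¹ : GL (Fin n) F) : Matrix (Fin n) (Fin n) F), ← Units.val_mul,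
            inv_mul_cancel, Units.val_one, Matrix.one_mul]

/-- Every value is a norm from a quadratic extension. -/
theorem exists_norm_eq [Fintype F] (hF : Fintype.card F % 2 = 1) {z : F} (hz0 : z ≠ 0) (δ : F) :
    ∃ u t : F, u * u - z * (t * t) = δ := by
  open Polynomial in
  obtain ⟨u, t, h⟩ := FiniteField.exists_root_sum_quadratic (R := F) (f := X ^ 2) (g := C (-z) * X ^ 2 - C δ)
    (degree_X_pow 2) (by
      have hd : (C (-z) * X ^ 2 : F[X]).degree = 2 := degree_C_mul_X_pow 2 (neg_ne_zero.2 hz0)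
      rw [degree_sub_eq_left_of_degree_lt] <;> rw [hd]
      exact lt_of_le_of_lt degree_C_le (by norm_num)) hF
  refine ⟨u, t, ?_⟩
  simp at h
  linear_combination h

/-- Square roots of scalars of determinant one are tensor products when `-1` is no `n`th power. -/
theorem exists_conj_mem [Fintype F] (hn : n = 2 * b) (hb : 0 < b) (hF : Fintype.card F % 2 = 1)
    (hneg : ∀ w : F, w ^ n ≠ -1) (x : GL (Fin n) F) (hxd : x ∈ Cfsg.Geo.specialLinear (Fin n) F) {z : F}
    (hx : ((x ^ 2 : GL (Fin n) F) : Matrix (Fin n) (Fin n) F) = z • 1) (P : GL (Fin n) F) :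
    ∃ g ∈ Cfsg.Geo.specialLinear (Fin n) F, g⁻¹ * x * g ∈ Cfsg.Geo.tensorProductSubgroup 2 b e P := by
  classical
  have h2 : (2 : F) ≠ 0 := by
    intro h
    have h' := FiniteField.even_card_iff_char_two (F := F)
    have : ringChar F = 2 := CharP.ringChar_of_prime_eq_zero Nat.prime_two (by exact_mod_cast h)
    have := h'.1 this
    omega
  rw [pow_two, Units.val_mul] at hx
  have hdet : (x : Matrix (Fin n) (Fin n) F).det = 1 := by
    have := hxd
    rw [Cfsg.Geo.specialLinear, MonoidHom.mem_ker] at this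
    exact congrArg Units.val this
  have hz0 : z ≠ 0 := by
    intro h
    haveI : Nonempty (Fin n) := ⟨⟨0, by omega⟩⟩
    have h1 := congrArg Matrix.det hx
    rw [Matrix.det_mul, hdet, h, zero_smul, Matrix.det_zero, mul_one] at h1
    exact one_ne_zero h1
  let j0 : Fin b := ⟨0, hb⟩
  by_cases hsq : ∃ w : F, w * w = z
  · obtain ⟨w, rfl⟩ := hsq
    have hw : w ≠ 0 := fun h => hz0 (by rw [h, zero_mul])
    obtain ⟨l, k, f, A, hA⟩ := exists_diag (x : Matrix (Fin n) (Fin n) F) hw h2 hx
    have hlk : n = l + k := by simpa using Fintype.card_congr f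
    have hdet2 : (1 : F) = w ^ n * (-1) ^ k := by
      have h1 := congrArg Matrix.det hA
      rw [Matrix.det_mul, Matrix.det_mul, hdet, one_mul, Matrix.det_diagonal, ← f.symm.prod_comp] at h1
      simp only [Equiv.apply_symm_apply, Fintype.prod_sum_type, Sum.elim_inl, Sum.elim_inr, Finset.prod_const,
        Finset.card_univ, Fintype.card_fin] at h1
      have hdA : (A : Matrix (Fin n) (Fin n) F).det ≠ 0 := ((Matrix.isUnit_iff_isUnit_det _).1 A.isUnit).ne_zero
      rw [eq_comm, mul_eq_left₀ hdA] at h1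
      calc (1 : F) = w ^ l * (-w) ^ k := h1.symm
        _ = w ^ n * (-1) ^ k := by rw [hlk, neg_pow w, pow_add]; ring
    have hke : Even k := by
      rcases Nat.even_or_odd k with h | h
      · exact h
      · exfalso
        rw [h.neg_one_pow] at hdet2
        exact hneg w (by linear_combination hdet2)
    obtain ⟨k', hk'⟩ := hke
    obtain ⟨l', hl'⟩ : ∃ l', l = l' + l' := ⟨b - k', by omega⟩
    let ε : Fin b → F := fun j => if (j : ℕ) < l' then w else -w
    let σ : Fin 2 × Fin b ≃ Fin l ⊕ Fin k :=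
      (((Equiv.refl (Fin 2)).prodCongr ((finCongr (show b = l' + k' by omega)).trans finSumFinEquiv.symm)).trans
        (Equiv.prodSumDistrib _ _ _)).trans
        ((finProdFinEquiv.trans (finCongr (by omega))).sumCongr (finProdFinEquiv.trans (finCongr (by omega))))
    have hσ : ∀ p, Sum.elim (fun _ : Fin l => w) (fun _ : Fin k => -w) (σ p) = ε p.2 := by
      rintro ⟨q, j⟩
      simp only [σ, ε, Equiv.trans_apply, Equiv.prodCongr_apply, Equiv.coe_refl, Prod.map, Function.comp, id]
      generalize hj : finSumFinEquiv.symm ((finCongr (show b = l' + k' by omega)) j) = s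
      have hs := congrArg (fun s => ((finSumFinEquiv s : Fin (l' + k')) : ℕ)) hj
      simp only [Equiv.apply_symm_apply, finCongr_apply, Fin.val_cast] at hs
      rcases s with i | i
      · rw [if_pos (by rw [hs]; simp)]; simp [Equiv.prodSumDistrib]
      · rw [if_neg (by rw [hs]; simp)]; simp [Equiv.prodSumDistrib]
    let π : Fin n ≃ Fin n := (e.trans σ).trans f.symm
    have hu2 : IsUnit (Matrix.diagonal ε) := by
      rw [Matrix.isUnit_iff_isUnit_det, Matrix.det_diagonal, isUnit_iff_ne_zero, Finset.prod_ne_zero_iff]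
      intro j _
      simp only [ε]
      split_ifs <;> simp [hw]
    have hA' : IsUnit ((A : Matrix (Fin n) (Fin n) F).submatrix id π) := by
      rw [Matrix.isUnit_iff_isUnit_det, isUnit_iff_ne_zero]
      rw [Matrix.det_permute' π]
      exact mul_ne_zero (by rcases Int.units_eq_one_or (Equiv.Perm.sign π) with h | h <;> simp [h])
        ((Matrix.isUnit_iff_isUnit_det _).1 A.isUnit).ne_zero
    refine exists_special P 1 hu2.unit hA'.unit ?_ ?_
    · rw [IsUnit.unit_spec, IsUnit.unit_spec, Units.val_one]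
      rw [show (x : Matrix (Fin n) (Fin n) F) * (A : Matrix (Fin n) (Fin n) F).submatrix id π =
          ((x : Matrix (Fin n) (Fin n) F) * (A : Matrix (Fin n) (Fin n) F)).submatrix id π from rfl, hA,
        ← Matrix.submatrix_mul_equiv _ _ id π π, ← Matrix.diagonal_one, Matrix.diagonal_kronecker_diagonal,
        Matrix.submatrix_diagonal_equiv, Matrix.submatrix_diagonal_equiv]
      congr 2
      funext i
      simp [π, hσ]
    · intro δ _
      refine ⟨Matrix.diagonal fun p => if p = ((0 : Fin 2), j0) then δ else 1, ?_, ?_⟩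
      · rw [Matrix.det_diagonal]; simp [Finset.prod_ite_eq']
      · rw [IsUnit.unit_spec, Units.val_one, ← Matrix.diagonal_one, Matrix.diagonal_kronecker_diagonal,
          Matrix.diagonal_mul_diagonal, Matrix.diagonal_mul_diagonal]
        simp_rw [mul_comm]
  · push Not at hsq
    obtain ⟨A, hA⟩ := exists_companion_kron (e := e) (x : Matrix (Fin n) (Fin n) F) hsq hx hn
    have hC : IsUnit (!![0, z; 1, 0] : Matrix (Fin 2) (Fin 2) F) := by
      rw [Matrix.isUnit_iff_isUnit_det, Matrix.det_fin_two]; simp [hz0]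
    refine exists_special P hC.unit 1 A (by rwa [IsUnit.unit_spec, Units.val_one]) fun δ _ => ?_
    obtain ⟨u, t, hut⟩ := exists_norm_eq hF hz0 δ
    refine ⟨Matrix.blockDiagonal fun j => if j = j0 then (!![u, z * t; t, u] : Matrix (Fin 2) (Fin 2) F) else 1, ?_, ?_⟩
    · rw [Matrix.det_blockDiagonal]
      simp only [apply_ite Matrix.det, Matrix.det_one, Finset.prod_ite_eq', Finset.mem_univ, if_true,
        Matrix.det_fin_two]
      simp
      linear_combination hut
    · rw [IsUnit.unit_spec, Units.val_one, Matrix.kronecker_one, ← Matrix.blockDiagonal_mul,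
        ← Matrix.blockDiagonal_mul]
      congr 1
      funext j
      split_ifs
      · ext i i'
        fin_cases i <;> fin_cases i' <;> simp [Matrix.mul_apply, mul_comm]
      · simp

end Cfsg.Agent.H19.TensorConj
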