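import Mathlib
import Cfsg.Agent.H19.TensorRank

/-! The rank of `g₁ ⊗ g₂ - 1` for an element of prime order with a long orbit. -/

set_option autoImplicit false

namespace Cfsg.Agent.H19.TensorOrbit

open Matrix Module
open scoped Kronecker

variable {F : Type*} [Field F] [Finite F] {r : ℕ} [Fact r.Prime]

/-- The first `ord_r q` orbit vectors of a moved vector are independent. -/
theorem orbit_independent {V : Type*} [AddCommGroup V] [Module F V] [FiniteDimensional F V] (hr : (r : F) ≠ 0)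
    (N : End F V) (hN : N ^ r = 1) {v : V} (hv : v ∈ H97.movedSpace N) (hv0 : v ≠ 0) :
    ∀ k ≤ orderOf (Nat.card F : ZMod r), LinearIndependent F fun s : Fin k => (N ^ (s : ℕ)) v := by
  intro k
  induction k with
  | zero => exact fun _ => linearIndependent_empty_type
  | succ k ih =>
    intro hk
    have hli := ih (by omega)
    have he : (fun s : Fin (k + 1) => (N ^ (s : ℕ)) v) =
        Fin.snoc (fun s : Fin k => (N ^ (s : ℕ)) v) ((N ^ k) v) := by
      funext s
      refine Fin.lastCases ?_ (fun i => ?_) s <;> simp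
    rw [he, linearIndependent_finSnoc]
    refine ⟨hli, fun hmem => ?_⟩
    set S := Submodule.span F (Set.range fun s : Fin k => (N ^ (s : ℕ)) v) with hS
    have hk0 : 0 < k := by
      rcases Nat.eq_zero_or_pos k with h0 | h0
      · subst h0
        rw [hS, Set.range_eq_empty, Submodule.span_empty, Submodule.mem_bot, pow_zero] at hmem
        exact absurd hmem hv0
      · exact h0
    have hSinv : S.map N ≤ S := by
      rw [hS, Submodule.map_span, Submodule.span_le]
      rintro _ ⟨_, ⟨s, rfl⟩, rfl⟩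
      show N ((N ^ (s : ℕ)) v) ∈ S
      rw [← Module.End.mul_apply, ← pow_succ']
      rcases Nat.lt_or_ge ((s : ℕ) + 1) k with h | h
      · exact Submodule.subset_span ⟨⟨_, h⟩, rfl⟩
      · rw [show (s : ℕ) + 1 = k by have := s.2; omega]; exact hmem
    have hmov : ∀ s : ℕ, (N ^ s) v ∈ H97.movedSpace N := by
      intro s
      induction s with
      | zero => exact hv
      | succ s ih => rw [pow_succ', Module.End.mul_apply]; exact H97.movedSpace_inv N ⟨_, ih, rfl⟩
    have hSM : S ≤ H97.movedSpace N := by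
      rw [hS, Submodule.span_le]
      rintro _ ⟨s, rfl⟩
      exact hmov s
    have hd := H97.dvd_finrank_fpf hr N hN S hSinv ((H97.disjoint_fixed_moved hr N hN).symm.mono_left hSM)
    rw [hS, finrank_span_eq_card hli, Fintype.card_fin] at hd
    have := Nat.le_of_dvd hk0 hd
    omega

variable {a b : ℕ}

/-- With an orbit of length `i` in the right factor, `g₁ ⊗ g₂ - 1` has rank at least `a (i - 1)`. -/
theorem le_rank_orbit_right (hr : (r : F) ≠ 0) (g₁ : Matrix (Fin a) (Fin a) F) (hg₁ : IsUnit g₁.det)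
    (g₂ : Matrix (Fin b) (Fin b) F) (hg₂ : g₂ ^ r = 1) (hne : g₂ ≠ 1) :
    a * (orderOf (Nat.card F : ZMod r) - 1) ≤ (g₁ ⊗ₖ g₂ - (1 : F) • 1).rank := by
  classical
  set i := orderOf (Nat.card F : ZMod r) with hi
  have hip : 0 < i := H97.orderOf_pos_zmod hr
  set N : End F (Fin b → F) := Matrix.toLinAlgEquiv' g₂ᵀ with hNdef
  have hN : N ^ r = 1 := by rw [hNdef, ← map_pow, ← Matrix.transpose_pow, hg₂, Matrix.transpose_one, map_one]
  have hNne : H97.movedSpace N ≠ ⊥ := by
    intro h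
    have h1 : N = 1 := sub_eq_zero.1 (LinearMap.range_eq_bot.1 h)
    rw [hNdef, ← map_one (Matrix.toLinAlgEquiv' (R := F) (n := Fin b))] at h1
    exact hne (Matrix.transpose_eq_one.1 (Matrix.toLinAlgEquiv'.injective h1))
  obtain ⟨v, hv, hv0⟩ := (Submodule.ne_bot_iff _).1 hNne
  set W := Submodule.span F (Set.range fun s : Fin i => (N ^ (s : ℕ)) v) with hW
  have hWd : finrank F W = i := by
    rw [hW, finrank_span_eq_card (orbit_independent hr N hN hv hv0 i le_rfl), Fintype.card_fin]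
  obtain ⟨U, hU⟩ := W.exists_isCompl
  have hUd : finrank F U + i = b := by
    have := Submodule.finrank_add_eq_of_isCompl hU
    rw [Module.finrank_fin_fun, hWd] at this; omega
  set U' := U ⊔ Submodule.span F {v}
  have hU'd : finrank F U' ≤ finrank F U + 1 := by
    refine (Submodule.finrank_add_le_finrank_add_finrank _ _).trans ?_
    rw [finrank_span_singleton hv0]
  set K := LinearMap.ker (g₁ ⊗ₖ g₂ - (1 : F) • 1).mulVecLin with hK
  let Φ : (Fin a × Fin b → F) →ₗ[F] (↥U' →ₗ[F] (Fin a → F)) :=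
    { toFun := fun y => (Matrix.of fun i j => y (i, j)).mulVecLin ∘ₗ U'.subtype
      map_add' := fun y y' => LinearMap.ext fun u => by
        funext i
        simp [Matrix.mulVec, dotProduct, Finset.sum_add_distrib, add_mul]
      map_smul' := fun c y => LinearMap.ext fun u => by
        funext i
        simp [Matrix.mulVec, dotProduct, Finset.mul_sum, mul_assoc] }
  have hinj : Function.Injective (Φ ∘ₗ K.subtype) := by
    rw [← LinearMap.ker_eq_bot, Submodule.eq_bot_iff]
    rintro ⟨y, hy⟩ hy0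
    set Y : Matrix (Fin a) (Fin b) F := Matrix.of fun i j => y (i, j) with hY
    have hfix : g₁ * Y * g₂ᵀ = Y := by
      ext i j
      have h1 := congrFun (LinearMap.mem_ker.1 hy) (i, j)
      rw [Matrix.mulVecLin_apply, Matrix.sub_mulVec, one_smul, Matrix.one_mulVec, Pi.sub_apply, Pi.zero_apply,
        sub_eq_zero] at h1
      rw [show Y i j = y (i, j) from rfl, ← h1]
      simp only [Matrix.mulVec, dotProduct, Fintype.sum_prod_type, Matrix.mul_apply, Matrix.transpose_apply,
        Finset.sum_mul, Matrix.kronecker_apply, hY, Matrix.of_apply]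
      rw [Finset.sum_comm]
      exact Finset.sum_congr rfl fun k _ => Finset.sum_congr rfl fun l _ => by ring
    have hU'0 : ∀ u ∈ U', Y *ᵥ u = 0 := fun u hu => LinearMap.congr_fun (LinearMap.mem_ker.1 hy0) ⟨u, hu⟩
    have horb : ∀ k : ℕ, Y *ᵥ ((N ^ k) v) = 0 := by
      intro k
      induction k with
      | zero => exact hU'0 v (Submodule.mem_sup_right (Submodule.mem_span_singleton_self v))
      | succ k ih =>
        rw [← hfix, ← Matrix.mulVec_mulVec, ← Matrix.mulVec_mulVec] at ih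
        have h2 : g₁⁻¹ *ᵥ (g₁ *ᵥ (Y *ᵥ (g₂ᵀ *ᵥ ((N ^ k) v)))) = 0 := by rw [ih, Matrix.mulVec_zero]
        rw [Matrix.mulVec_mulVec, Matrix.nonsing_inv_mul _ hg₁, Matrix.one_mulVec] at h2
        rw [pow_succ', Module.End.mul_apply]
        exact h2
    have htop : ∀ u, Y *ᵥ u = 0 := by
      have hle : W ⊔ U ≤ LinearMap.ker Y.mulVecLin := sup_le (by
        rw [hW, Submodule.span_le]
        rintro _ ⟨s, rfl⟩
        exact horb s) fun u hu => hU'0 u (Submodule.mem_sup_left hu)
      rw [hU.sup_eq_top] at hle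
      exact fun u => hle Submodule.mem_top
    have hY0 : Y = 0 := Matrix.ext_of_mulVec_single fun k => by rw [htop, Matrix.zero_mulVec]
    refine Subtype.ext (funext fun p => ?_)
    exact congrFun (congrFun hY0 p.1) p.2
  have h1 := LinearMap.finrank_le_finrank_of_injective hinj
  rw [Module.finrank_linearMap, Module.finrank_fin_fun] at h1
  have h2 := LinearMap.finrank_range_add_finrank_ker (g₁ ⊗ₖ g₂ - (1 : F) • 1).mulVecLin
  rw [← hK, Module.finrank_fintype_fun_eq_card, Fintype.card_prod, Fintype.card_fin, Fintype.card_fin] at h2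
  change _ ≤ finrank F (LinearMap.range _)
  have h3 : finrank F U' * a ≤ (finrank F U + 1) * a := Nat.mul_le_mul_right a hU'd
  have h4 : (finrank F U + 1) * a + a * (i - 1) = a * b := by
    calc (finrank F U + 1) * a + a * (i - 1) = a * ((finrank F U + 1) + (i - 1)) := by ring
      _ = a * b := by congr 1; omega
  omega

/-- With an orbit of length `i` in the left factor, `g₁ ⊗ g₂ - 1` has rank at least `b (i - 1)`. -/
theorem le_rank_orbit_left (hr : (r : F) ≠ 0) (g₁ : Matrix (Fin a) (Fin a) F) (hg₁ : g₁ ^ r = 1) (hne : g₁ ≠ 1)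
    (g₂ : Matrix (Fin b) (Fin b) F) (hg₂ : IsUnit g₂.det) :
    b * (orderOf (Nat.card F : ZMod r) - 1) ≤ (g₁ ⊗ₖ g₂ - (1 : F) • 1).rank := by
  have hsw : (g₁ ⊗ₖ g₂ - (1 : F) • 1) =
      (g₂ ⊗ₖ g₁ - (1 : F) • 1).submatrix (Equiv.prodComm _ _) (Equiv.prodComm _ _) := by
    ext ⟨i, j⟩ ⟨k, l⟩
    simp [Matrix.one_apply, mul_comm, and_comm]
  rw [hsw, Matrix.rank_submatrix]
  exact le_rank_orbit_right hr g₂ hg₂ g₁ hg₁ hne

/-- The rank of `M - 1` is a multiple of `ord_r q`. -/
theorem dvd_rank_of_pow {m : ℕ} (hr : (r : F) ≠ 0) (M : Matrix (Fin m) (Fin m) F) (hM : M ^ r = 1) :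
    orderOf (Nat.card F : ZMod r) ∣ (M - (1 : F) • 1).rank := by
  have hT : (Matrix.toLinAlgEquiv' M : End F (Fin m → F)) ^ r = 1 := by rw [← map_pow, hM, map_one]
  have h1 := H97.dvd_finrank_fpf hr _ hT _ (H97.movedSpace_inv _) (H97.disjoint_fixed_moved hr _ hT).symm
  have he : (M - (1 : F) • 1).mulVecLin = (Matrix.toLinAlgEquiv' M : End F (Fin m → F)) - 1 := by
    refine LinearMap.ext fun v => ?_
    simp
  rw [Matrix.rank, he]
  exact h1

/-- An element of order `r` moving `m ≤ 2 ord_r q` dimensions that is a Kronecker product with an even left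
factor is `1 ⊗ M` with `a = 2` and `m = 2 ord_r q`. -/
theorem structure_of_small_moved (hr : (r : F) ≠ 0) (ha : Even a) (ha2 : 2 ≤ a) (hb : 3 ≤ b)
    (hi : 3 ≤ orderOf (Nat.card F : ZMod r)) (g₁ : Matrix (Fin a) (Fin a) F) (g₂ : Matrix (Fin b) (Fin b) F)
    (hg : (g₁ ⊗ₖ g₂) ^ r = 1) {m : ℕ} (hm : (g₁ ⊗ₖ g₂ - (1 : F) • 1).rank = m)
    (hcase : m = orderOf (Nat.card F : ZMod r) ∨
      Odd (orderOf (Nat.card F : ZMod r)) ∧ m = 2 * orderOf (Nat.card F : ZMod r)) :
    ∃ M : Matrix (Fin b) (Fin b) F, g₁ ⊗ₖ g₂ = (1 : Matrix (Fin a) (Fin a) F) ⊗ₖ M ∧ M ^ r = 1 ∧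
      Odd (orderOf (Nat.card F : ZMod r)) ∧ (M - (1 : F) • 1).rank = orderOf (Nat.card F : ZMod r) := by
  classical
  generalize hI : orderOf (Nat.card F : ZMod r) = i at *
  have hkp : ∀ k : ℕ, (g₁ ⊗ₖ g₂) ^ k = (g₁ ^ k) ⊗ₖ (g₂ ^ k) := by
    intro k
    induction k with
    | zero => simp
    | succ k ih => rw [pow_succ, pow_succ, pow_succ, ih, ← Matrix.mul_kronecker_mul]
  rw [hkp] at hg
  let j0 : Fin b := ⟨0, by omega⟩
  let i0 : Fin a := ⟨0, by omega⟩
  have hent : ∀ s t, (g₁ ^ r) s t * (g₂ ^ r) j0 j0 = (1 : Matrix (Fin a) (Fin a) F) s t := by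
    intro s t
    have := congrFun (congrFun hg (s, j0)) (t, j0)
    simpa [Matrix.one_apply] using this
  have hne : (g₂ ^ r) j0 j0 ≠ 0 := by
    intro h0
    have := hent i0 i0
    rw [h0, mul_zero, Matrix.one_apply_eq] at this
    exact zero_ne_one this
  obtain ⟨w, hw⟩ := H97.exists_pow_eq (F := F) (r := r) (by omega) ((g₂ ^ r) j0 j0)
  have hw0 : w ≠ 0 := fun h0 => hne (by rw [← hw, h0, zero_pow (Fact.out : r.Prime).ne_zero])
  set G₁ := w • g₁ with hG₁def
  set G₂ := w⁻¹ • g₂ with hG₂def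
  have hG₁ : G₁ ^ r = 1 := by
    rw [hG₁def, smul_pow, hw]
    ext s t
    rw [Matrix.smul_apply, smul_eq_mul, mul_comm, hent]
  have hprod : g₁ ⊗ₖ g₂ = G₁ ⊗ₖ G₂ := by
    rw [hG₁def, hG₂def, Matrix.smul_kronecker, Matrix.kronecker_smul, smul_smul, mul_inv_cancel₀ hw0, one_smul]
  have hG₂ : G₂ ^ r = 1 := by
    have h1 : (g₁ ^ r) ⊗ₖ (g₂ ^ r) = (G₁ ^ r) ⊗ₖ (G₂ ^ r) := by
      rw [hG₁def, hG₂def, smul_pow, smul_pow, Matrix.smul_kronecker, Matrix.kronecker_smul, smul_smul, inv_pow,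
        mul_inv_cancel₀ (pow_ne_zero _ hw0), one_smul]
    rw [hg, hG₁] at h1
    refine Matrix.ext fun s t => ?_
    have h2 := congrFun (congrFun h1 (i0, s)) (i0, t)
    simpa [Matrix.one_apply] using h2.symm
  rw [hprod] at hm ⊢
  have hd1 : IsUnit G₁.det := by
    have h1 := congrArg Matrix.det hG₁
    rw [Matrix.det_pow, Matrix.det_one] at h1
    exact IsUnit.of_pow_eq_one h1 (Fact.out : r.Prime).ne_zero
  have hd2 : IsUnit G₂.det := by
    have h1 := congrArg Matrix.det hG₂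
    rw [Matrix.det_pow, Matrix.det_one] at h1
    exact IsUnit.of_pow_eq_one h1 (Fact.out : r.Prime).ne_zero
  have hG₁1 : G₁ = 1 := by
    by_contra h1
    have hk := hI ▸ dvd_rank_of_pow hr G₁ hG₁
    have hle : (G₁ - (1 : F) • 1).rank ≤ a := Matrix.rank_le_width _
    have hpos : 0 < (G₁ - (1 : F) • 1).rank := Nat.pos_of_ne_zero fun h0 => h1 (by
      rw [Matrix.rank, Submodule.finrank_eq_zero, LinearMap.range_eq_bot] at h0
      refine sub_eq_zero.1 (Matrix.ext_of_mulVec_single fun k => ?_)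
      rw [Matrix.zero_mulVec]
      have h := LinearMap.congr_fun h0 (Pi.single k 1)
      rwa [one_smul, Matrix.mulVecLin_apply] at h)
    have hai := Nat.le_of_dvd hpos hk
    have hL : b * (i - 1) ≤ m := hI ▸ hm ▸ le_rank_orbit_left hr G₁ hG₁ h1 G₂ hd2
    by_cases h2 : G₂ = 1
    · rw [h2] at hm
      have hs : G₁ ⊗ₖ (1 : Matrix (Fin b) (Fin b) F) - (1 : F) • 1 =
          ((1 : Matrix (Fin b) (Fin b) F) ⊗ₖ (G₁ - (1 : F) • 1)).submatrix (Equiv.prodComm _ _) (Equiv.prodComm _ _) := by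
        ext ⟨s, u⟩ ⟨t, v⟩
        simp [Matrix.one_apply]
        split_ifs <;> simp_all
      rw [hs, Matrix.rank_submatrix, TensorRank.rank_one_kron] at hm
      have : 3 * i ≤ m := hm ▸ Nat.mul_le_mul hb hai
      omega
    · have hk2 := hI ▸ dvd_rank_of_pow hr G₂ hG₂
      have hle2 : (G₂ - (1 : F) • 1).rank ≤ b := Matrix.rank_le_width _
      have hpos2 : 0 < (G₂ - (1 : F) • 1).rank := Nat.pos_of_ne_zero fun h0 => h2 (by
        rw [Matrix.rank, Submodule.finrank_eq_zero, LinearMap.range_eq_bot] at h0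
        refine sub_eq_zero.1 (Matrix.ext_of_mulVec_single fun k => ?_)
        rw [Matrix.zero_mulVec]
        have h := LinearMap.congr_fun h0 (Pi.single k 1)
        rwa [one_smul, Matrix.mulVecLin_apply] at h)
      have hbi := Nat.le_of_dvd hpos2 hk2
      have hR : a * (i - 1) ≤ m := hI ▸ hm ▸ le_rank_orbit_right hr G₁ hd1 G₂ hG₂ h2
      rcases hcase with rfl | ⟨hodd, rfl⟩
      · have : a * 2 ≤ a * (m - 1) := Nat.mul_le_mul_left a (by omega)
        omega
      · obtain ⟨k, rfl⟩ := hodd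
        obtain ⟨c, rfl⟩ := ha
        have hk1 : 1 ≤ k := by omega
        have : (2 * k + 2) * (2 * k + 1 - 1) ≤ (c + c) * (2 * k + 1 - 1) := Nat.mul_le_mul_right _ (by omega)
        have : 4 * k + 3 ≤ (2 * k + 2) * (2 * k + 1 - 1) := by
          rw [show 2 * k + 1 - 1 = 2 * k by omega]; nlinarith
        omega
  refine ⟨G₂, by rw [hG₁1], hG₂, ?_⟩
  rw [hG₁1, show (1 : Matrix (Fin a) (Fin a) F) ⊗ₖ G₂ - (1 : F) • 1 =
      (1 : Matrix (Fin a) (Fin a) F) ⊗ₖ (G₂ - (1 : F) • 1) by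
    ext ⟨s, u⟩ ⟨t, v⟩
    simp [Matrix.one_apply]
    split_ifs <;> simp_all, TensorRank.rank_one_kron] at hm
  obtain ⟨l, hl⟩ := hI ▸ dvd_rank_of_pow hr G₂ hG₂
  rw [hl] at hm ⊢
  rcases hcase with rfl | ⟨hodd, rfl⟩
  · exfalso
    rcases Nat.eq_zero_or_pos l with rfl | hl0
    · simp at hm; omega
    · have : 2 * m ≤ a * (m * l) := Nat.mul_le_mul ha2 (Nat.le_mul_of_pos_right m hl0)
      omega
  · rcases Nat.lt_or_ge l 2 with hl2 | hl2
    · rcases Nat.eq_zero_or_pos l with rfl | hl0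
      · simp at hm; omega
      · rw [show l = 1 by omega, mul_one]
        exact ⟨hodd, rfl⟩
    · exfalso
      have : 2 * (i * 2) ≤ a * (i * l) := Nat.mul_le_mul ha2 (Nat.mul_le_mul_left i hl2)
      omega

end Cfsg.Agent.H19.TensorOrbit
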