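import Cfsg.Agent.H98.HermStd
import Cfsg.Agent.H98.HermSub
import Cfsg.Agent.H3.Geometry
import Cfsg.Agent.H3.Isotropic

/-! Pairs of complementary totally singular subspaces of the unitary space. -/

set_option autoImplicit false
set_option linter.unusedSectionVars false

namespace Cfsg.Agent.H19.UPair

open scoped Matrix
open Module Cfsg.Agent.H98

variable {F : Type*} [Field F] [Fintype F] {q n : ℕ} (hF : Fintype.card F = q ^ 2)

local notation "Mat" => Matrix (Fin n) (Fin n) F
local notation "h" => Cfsg.hermForm n F q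

/-- A pair of complementary totally singular subspaces of dimension `k`. -/
structure IsPair (U W : Submodule F (Fin n → F)) (k : ℕ) (q : ℕ) : Prop where
  compl : IsCompl U W
  tsU : ∀ u ∈ U, ∀ v ∈ U, Cfsg.hermForm n F q u v = 0
  tsW : ∀ u ∈ W, ∀ v ∈ W, Cfsg.hermForm n F q u v = 0
  dimU : finrank F U = k
  dimW : finrank F W = k

/-- The pair reversed. -/
theorem IsPair.symm {U W : Submodule F (Fin n → F)} {k : ℕ} (P : IsPair U W k q) : IsPair W U k q :=
  ⟨P.compl.symm, P.tsW, P.tsU, P.dimW, P.dimU⟩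

theorem IsPair.two_mul {U W : Submodule F (Fin n → F)} {k : ℕ} (P : IsPair U W k q) : n = k + k := by
  have hd := Submodule.finrank_add_eq_of_isCompl P.compl
  rw [P.dimU, P.dimW, Module.finrank_fin_fun] at hd
  omega

include hF

/-- A vector of one member orthogonal to the other member is zero. -/
theorem IsPair.eq_zero {U W : Submodule F (Fin n → F)} {k : ℕ} (P : IsPair U W k q) {w : Fin n → F} (hw : w ∈ W)
    (h0 : ∀ u ∈ U, h u w = 0) : w = 0 := by
  have hf := Herm.isUnitary_std (n := n) hF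
  by_contra hne
  obtain ⟨x, hx⟩ := (hf.nondegenerate w hne).1
  obtain ⟨a, ha, b, hb, rfl⟩ := Submodule.mem_sup.1 (P.compl.sup_eq_top.ge (Submodule.mem_top (x := x)))
  rw [hf.add_left, h0 a ha, P.tsW b hb w hw, add_zero] at hx
  exact hx rfl

/-- Dual frames. -/
theorem IsPair.exists_frame {U W : Submodule F (Fin n → F)} {k : ℕ} (P : IsPair U W k q) :
    ∃ e w : Fin k → (Fin n → F), (∀ l, e l ∈ U) ∧ (∀ l, w l ∈ W) ∧ LinearIndependent F (Fin.append e w) ∧
      Submodule.span F (Set.range e) = U ∧ Submodule.span F (Set.range w) = W ∧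
      ∀ m l, h (e m) (w l) = if m = l then 1 else 0 := by
  classical
  have hf := Herm.isUnitary_std (n := n) hF
  let b := Module.finBasisOfFinrankEq F U P.dimU
  let π := U.projectionOnto W P.compl
  choose v hv using fun l : Fin k => Herm.fl_surjective hf (b.coord l ∘ₗ π)
  let w : Fin k → (Fin n → F) := fun l => (W.projectionOnto U P.compl.symm (v l) : Fin n → F)
  have hw : ∀ l, w l ∈ W := fun l => (W.projectionOnto U P.compl.symm (v l)).2
  have hew : ∀ m l, h (b m : Fin n → F) (w l) = if m = l then 1 else 0 := fun m l => by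
    have hs : v l = (π (v l) : Fin n → F) + w l :=
      (Submodule.projection_add_projection_eq_self P.compl (v l)).symm
    have h1 : h (b m : Fin n → F) (v l) = h (b m : Fin n → F) (w l) := by
      conv_lhs => rw [hs, Herm.add_right hf, P.tsU _ (b m).2 _ (π (v l)).2, zero_add]
    rw [← h1, ← Herm.fl_apply hf, hv l, LinearMap.comp_apply, Submodule.projectionOnto_apply_left,
      Basis.coord_apply, Basis.repr_self, Finsupp.single_apply]
  have hli : LinearIndependent F w := by
    rw [Fintype.linearIndependent_iff]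
    intro g hg i
    have h1 : Herm.fl hf (b i : Fin n → F) (∑ j, g j • w j) = g i := by
      simp only [map_sum, map_smul, Herm.fl_apply, smul_eq_mul]
      rw [Finset.sum_eq_single i]
      · rw [← Herm.sigma_apply hf, hew, if_pos rfl, map_one, mul_one]
      · intro j _ hj
        rw [← Herm.sigma_apply hf, hew, if_neg (Ne.symm hj), map_zero, mul_zero]
      · simp
    rw [hg, map_zero] at h1
    exact h1.symm
  have hbi : LinearIndependent F fun l => (b l : Fin n → F) :=
    b.linearIndependent.map' U.subtype (Submodule.ker_subtype U)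
  have hsU : Submodule.span F (Set.range fun l => (b l : Fin n → F)) = U := by
    refine Submodule.eq_of_le_of_finrank_eq (Submodule.span_le.2 (Set.range_subset_iff.2 fun l => (b l).2)) ?_
    rw [finrank_span_eq_card hbi, P.dimU, Fintype.card_fin]
  have hsW : Submodule.span F (Set.range w) = W := by
    refine Submodule.eq_of_le_of_finrank_eq (Submodule.span_le.2 (Set.range_subset_iff.2 hw)) ?_
    rw [finrank_span_eq_card hli, P.dimW, Fintype.card_fin]
  refine ⟨fun l => (b l : Fin n → F), w, fun l => (b l).2, hw, ?_, hsU, hsW, hew⟩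
  have h2 : LinearIndependent F (Sum.elim (fun l => (b l : Fin n → F)) w) :=
    hbi.sum_type hli (by rw [hsU, hsW]; exact P.compl.disjoint)
  have he : Fin.append (fun l => (b l : Fin n → F)) w =
      Sum.elim (fun l => (b l : Fin n → F)) w ∘ finSumFinEquiv.symm := by
    funext i
    refine Fin.addCases (fun j => ?_) (fun j => ?_) i <;>
      simp only [Fin.append_left, Fin.append_right, Function.comp_apply, finSumFinEquiv_symm_apply_castAdd,
        finSumFinEquiv_symm_apply_natAdd, Sum.elim_inl, Sum.elim_inr]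
  rw [he]
  exact h2.comp _ finSumFinEquiv.symm.injective

/-- The Gram matrix of a dual frame. -/
theorem gram_frame {U W : Submodule F (Fin n → F)} {k : ℕ} (P : IsPair U W k q) {e w : Fin k → (Fin n → F)}
    (he : ∀ l, e l ∈ U) (hw : ∀ l, w l ∈ W) (hew : ∀ m l, h (e m) (w l) = if m = l then 1 else 0) :
    ∀ i j, h (Fin.append e w i) (Fin.append e w j) =
      Fin.addCases (motive := fun _ => F)
        (fun a => Fin.addCases (motive := fun _ => F) (fun _ => 0) (fun b => if a = b then 1 else 0) j)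
        (fun a => Fin.addCases (motive := fun _ => F) (fun b => if a = b then 1 else 0) (fun _ => 0) j) i := by
  have hf := Herm.isUnitary_std (n := n) hF
  intro i j
  refine Fin.addCases (fun a => ?_) (fun a => ?_) i <;> refine Fin.addCases (fun b => ?_) (fun b => ?_) j <;>
    simp only [Fin.append_left, Fin.append_right, Fin.addCases_left, Fin.addCases_right]
  · exact P.tsU _ (he a) _ (he b)
  · exact hew a b
  · rw [← Herm.sigma_apply hf, hew b a]; by_cases hab : a = b
    · subst hab; simp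
    · rw [if_neg (Ne.symm hab), if_neg hab, map_zero]
  · exact P.tsW _ (hw a) _ (hw b)

/-- Norm-one elements are `(q - 1)`th powers. -/
theorem exists_pow_sub_one {δ : F} (hδ : δ ^ (q + 1) = 1) : ∃ c : F, c ≠ 0 ∧ c ^ (q - 1) = δ := by
  classical
  obtain ⟨g, hg⟩ := IsCyclic.exists_generator (α := Fˣ)
  have hq := H3.two_le_q hF
  have hord : orderOf g = (q - 1) * (q + 1) := by
    rw [orderOf_eq_card_of_forall_mem_zpowers hg, H3.card_units_eq hF]
  have hδ0 : δ ≠ 0 := by intro h0; rw [h0, zero_pow (Nat.succ_ne_zero q)] at hδ; exact zero_ne_one hδ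
  obtain ⟨m, hm⟩ := (mem_powers_iff_mem_zpowers (y := Units.mk0 δ hδ0) (x := g)).2 (hg _)
  simp only at hm
  have hd : orderOf g ∣ m * (q + 1) := orderOf_dvd_of_pow_eq_one (by
    rw [pow_mul, hm]; ext; simpa using hδ)
  rw [hord] at hd
  obtain ⟨j, hj⟩ := Nat.dvd_of_mul_dvd_mul_right (Nat.succ_pos q) hd
  refine ⟨(g : F) ^ j, pow_ne_zero _ g.ne_zero, ?_⟩
  rw [← pow_mul, mul_comm, ← hj, ← Units.val_pow_eq_pow_val, hm, Units.val_mk0]

/-- An element of `GU` fixing a pair, of prescribed determinant. -/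
theorem exists_fix_det {U W : Submodule F (Fin n → F)} {k : ℕ} (P : IsPair U W k q) (hk : 0 < k) {δ : F}
    (hδ : δ ^ (q + 1) = 1) :
    ∃ g : Cfsg.GU n F q, (g.1 : Mat).det = δ ∧ (∀ u ∈ U, (g.1 : Mat) *ᵥ u ∈ U) ∧
      ∀ u ∈ W, (g.1 : Mat) *ᵥ u ∈ W := by
  classical
  have hf := Herm.isUnitary_std (n := n) hF
  obtain ⟨e, w, he, hw, hli, hsU, hsW, hew⟩ := P.exists_frame hF
  obtain ⟨c, hc, hcq⟩ := exists_pow_sub_one hF (δ := δ⁻¹) (by rw [inv_pow, hδ, inv_one])
  let l0 : Fin k := ⟨0, hk⟩
  let d : Fin k → F := Function.update 1 l0 c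
  let d' : Fin k → F := Function.update 1 l0 ((c ^ q)⁻¹)
  let e' : Fin k → (Fin n → F) := fun l => d l • e l
  let w' : Fin k → (Fin n → F) := fun l => d' l • w l
  have hd : ∀ l, d l ≠ 0 := fun l => by by_cases hl : l = l0 <;> simp [d, hl, hc]
  have hd' : ∀ l, d' l ≠ 0 := fun l => by by_cases hl : l = l0 <;> simp [d', hl, hc]
  have hdd : ∀ l, d l * d' l ^ q = 1 := fun l => by
    by_cases hl : l = l0
    · subst hl
      simp only [d, d', Function.update_self]
      rw [inv_pow, H3.pow_q_pow_q hF, mul_inv_cancel₀ hc]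
    · simp [d, d', hl]
  have hew' : ∀ m l, h (e' m) (w' l) = if m = l then 1 else 0 := fun m l => by
    rw [hf.smul_left, Herm.smul_right hf, Herm.frobQ_apply, hew]
    by_cases hml : m = l
    · subst hml; rw [if_pos rfl, mul_one, hdd]
    · rw [if_neg hml, mul_zero, mul_zero]
  have happ : ∀ i, Fin.append e' w' i = Fin.append d d' i • Fin.append e w i := fun i => by
    refine Fin.addCases (fun j => ?_) (fun j => ?_) i <;> simp only [Fin.append_left, Fin.append_right, e', w']
  have hne : ∀ i, Fin.append d d' i ≠ 0 := fun i => by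
    refine Fin.addCases (fun j => ?_) (fun j => ?_) i <;> simp only [Fin.append_left, Fin.append_right]
    · exact hd j
    · exact hd' j
  have hli' : LinearIndependent F (Fin.append e' w') := by
    have := hli.units_smul (w := fun i => Units.mk0 _ (hne i))
    convert this using 1
    funext i
    rw [happ]
    rfl
  obtain ⟨g, hg⟩ := H3.exists_GU_witt hF (Fin.append e w) (Fin.append e' w') hli hli' fun i j => by
    rw [gram_frame hF P he hw hew, gram_frame hF P (fun l => U.smul_mem _ (he l)) (fun l => W.smul_mem _ (hw l))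
      hew']
  have hcard : Fintype.card (Fin (k + k)) = finrank F (Fin n → F) := by
    rw [Fintype.card_fin, Module.finrank_fin_fun, ← P.two_mul]
  haveI : Nonempty (Fin (k + k)) := ⟨⟨0, by omega⟩⟩
  let b := basisOfLinearIndependentOfCardEqFinrank hli hcard
  have hb : ∀ i, b i = Fin.append e w i := fun i => by simp [b]
  have hmap : ∀ (S : Submodule F (Fin n → F)) (v : Fin k → (Fin n → F)) (s : Fin k → F),
      Submodule.span F (Set.range v) = S → (∀ l, (g.1 : Mat) *ᵥ v l = s l • v l) →
      ∀ u ∈ S, (g.1 : Mat) *ᵥ u ∈ S := by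
    intro S v s hS hgv u hu
    have hle : S ≤ S.comap (Matrix.toLin' (g.1 : Mat)) := by
      conv_lhs => rw [← hS]
      rw [Submodule.span_le]
      rintro _ ⟨l, rfl⟩
      show Matrix.toLin' (g.1 : Mat) (v l) ∈ S
      rw [Matrix.toLin'_apply, hgv, ← hS]
      exact Submodule.smul_mem _ _ (Submodule.subset_span ⟨l, rfl⟩)
    simpa using hle hu
  refine ⟨g, ?_, hmap U e d hsU fun l => ?_, hmap W w d' hsW fun l => ?_⟩
  · have hT : Matrix.toLin' (g.1 : Mat) = Matrix.toLin b b (Matrix.diagonal (Fin.append d d')) := b.ext fun i => by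
      rw [Matrix.toLin'_apply, Matrix.toLin_self, hb, hg, happ]
      simp [Matrix.diagonal_apply, ite_smul, hb]
    rw [← LinearMap.det_toLin', hT, LinearMap.det_toLin, Matrix.det_diagonal, Fin.prod_univ_add]
    simp only [Fin.append_left, Fin.append_right, d, d', Finset.prod_update_of_mem (Finset.mem_univ l0),
      Pi.one_apply, Finset.prod_const_one, mul_one]
    have hq := H3.two_le_q hF
    have hcq' : c ^ q = δ⁻¹ * c := by rw [← hcq, ← pow_succ, Nat.sub_add_cancel (by omega)]
    rw [hcq', mul_inv, inv_inv]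
    field_simp
  · have := hg (Fin.castAdd k l)
    simpa [e'] using this
  · have := hg (Fin.natAdd k l)
    rw [Fin.append_right, Fin.append_right] at this
    exact this

/-- `SU` is transitive on pairs. -/
theorem exists_su_map {U W U' W' : Submodule F (Fin n → F)} {k : ℕ} (P : IsPair U W k q) (P' : IsPair U' W' k q)
    (hk : 0 < k) :
    ∃ g ∈ Cfsg.GU n F q ⊓ Cfsg.Geo.specialLinear (Fin n) F,
      (∀ u ∈ U, (g : Mat) *ᵥ u ∈ U') ∧ ∀ u ∈ W, (g : Mat) *ᵥ u ∈ W' := by
  classical
  obtain ⟨e, w, he, hw, hli, hsU, hsW, hew⟩ := P.exists_frame hF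
  obtain ⟨e', w', he', hw', hli', hsU', hsW', hew'⟩ := P'.exists_frame hF
  obtain ⟨g, hg⟩ := H3.exists_GU_witt hF (Fin.append e w) (Fin.append e' w') hli hli' fun i j => by
    rw [gram_frame hF P he hw hew, gram_frame hF P' he' hw' hew']
  have hdg := H3.det_GU hF g
  obtain ⟨g', hd', hU', hW'⟩ := exists_fix_det hF P' hk (δ := (g.1 : Mat).det⁻¹) (by rw [inv_pow, hdg, inv_one])
  have hd0 : (g.1 : Mat).det ≠ 0 := ((Matrix.isUnit_iff_isUnit_det _).1 g.1.isUnit).ne_zero
  have hmap : ∀ (S S' : Submodule F (Fin n → F)) (v : Fin k → (Fin n → F)),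
      Submodule.span F (Set.range v) = S → (∀ l, (g.1 : Mat) *ᵥ v l ∈ S') →
      ∀ u ∈ S, (g.1 : Mat) *ᵥ u ∈ S' := by
    intro S S' v hS hgv u hu
    have hle : S ≤ S'.comap (Matrix.toLin' (g.1 : Mat)) := by
      rw [← hS, Submodule.span_le]
      rintro _ ⟨l, rfl⟩
      show Matrix.toLin' (g.1 : Mat) (v l) ∈ S'
      rw [Matrix.toLin'_apply]; exact hgv l
    simpa using hle hu
  refine ⟨g'.1 * g.1, ⟨mul_mem g'.2 g.2, ?_⟩, fun u hu => ?_, fun u hu => ?_⟩
  · show Matrix.GeneralLinearGroup.det (g'.1 * g.1) = 1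
    ext
    simp [Matrix.GeneralLinearGroup.val_det_apply, hd', inv_mul_cancel₀ hd0]
  · rw [Units.val_mul, ← Matrix.mulVec_mulVec]
    refine hU' _ (hmap U U' e hsU (fun l => ?_) u hu)
    have := hg (Fin.castAdd k l)
    simp only [Fin.append_left] at this
    rw [this]; exact he' l
  · rw [Units.val_mul, ← Matrix.mulVec_mulVec]
    refine hW' _ (hmap W W' w hsW (fun l => ?_) u hu)
    have := hg (Fin.natAdd k l)
    simp only [Fin.append_right] at this
    rw [this]; exact hw' l

/-- A nondegenerate subspace of even dimension is the sum of two totally singular subspaces. -/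
theorem exists_lagrangians (k : ℕ) :
    ∀ E : Submodule F (Fin n → F), finrank F E = 2 * k → (∀ x ∈ E, (∀ y ∈ E, h x y = 0) → x = 0) →
      ∃ A B : Submodule F (Fin n → F), A ⊔ B = E ∧ finrank F A ≤ k ∧ finrank F B ≤ k ∧
        (∀ u ∈ A, ∀ v ∈ A, h u v = 0) ∧ ∀ u ∈ B, ∀ v ∈ B, h u v = 0 := by
  have hf := Herm.isUnitary_std (n := n) hF
  induction k with
  | zero =>
    intro E hd _
    refine ⟨⊥, ⊥, by rw [Submodule.finrank_eq_zero.1 (by omega : finrank F E = 0), sup_bot_eq], by simp, by simp,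
      ?_, ?_⟩ <;>
    · rintro u hu v -
      rw [(Submodule.mem_bot F).1 hu, Herm.zero_left hf]
  | succ k ih =>
    intro E hd hE
    have hE' : ∀ x ∈ E, x ∈ Herm.perp hf E → x = 0 := fun x hx hp => hE x hx ((Herm.mem_perpW hf).1 hp)
    obtain ⟨e, he, e', he', hee, he'e', h1, h2⟩ := Herm.exists_pair_nondeg hf hE' (by omega)
    let φ : E →ₗ[F] F × F := ((Herm.fl hf e).prod (Herm.fl hf e')).comp E.subtype
    let E' := (LinearMap.ker φ).map E.subtype
    have hmem : ∀ x, x ∈ E' ↔ x ∈ E ∧ h x e = 0 ∧ h x e' = 0 := by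
      intro x
      simp [E', φ, Herm.fl_apply]
      tauto
    have hdec : ∀ x ∈ E, x - h x e' • e - h x e • e' ∈ E' := by
      intro x hx
      rw [hmem]
      refine ⟨E.sub_mem (E.sub_mem hx (E.smul_mem _ he)) (E.smul_mem _ he'), ?_, ?_⟩
      · rw [Herm.sub_left hf, Herm.sub_left hf, hf.smul_left, hf.smul_left, hee, h2]; ring
      · rw [Herm.sub_left hf, Herm.sub_left hf, hf.smul_left, hf.smul_left, h1, he'e']; ring
    have hrk : finrank F E' = 2 * k := by
      rw [Submodule.finrank_map_subtype_eq]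
      have h3 := LinearMap.finrank_range_add_finrank_ker φ
      have h4 : LinearMap.range φ = ⊤ := by
        rw [eq_top_iff]
        rintro ⟨a, b⟩ -
        refine ⟨⟨a • e' + b • e, E.add_mem (E.smul_mem _ he') (E.smul_mem _ he)⟩, ?_⟩
        simp [φ, Herm.fl_apply, hf.add_left, hf.smul_left, hee, he'e', h1, h2]
      rw [h4, finrank_top, Module.finrank_prod, Module.finrank_self, hd] at h3
      omega
    have hE'nd : ∀ x ∈ E', (∀ y ∈ E', h x y = 0) → x = 0 := by
      intro x hx h0
      obtain ⟨hxE, hxe, hxe'⟩ := (hmem x).1 hx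
      refine hE x hxE fun y hy => ?_
      have := h0 _ (hdec y hy)
      rwa [Herm.sub_right hf, Herm.sub_right hf, Herm.smul_right hf, Herm.smul_right hf, hxe, hxe', mul_zero,
        mul_zero, sub_zero, sub_zero] at this
    obtain ⟨A, B, hAB, hA, hB, hAts, hBts⟩ := ih E' hrk hE'nd
    have hle : ∀ {v : Fin n → F} {S : Submodule F (Fin n → F)}, finrank F S ≤ k →
        finrank F ↥(Submodule.span F {v} ⊔ S) ≤ k + 1 := fun {v S} hS =>
      (Submodule.finrank_add_le_finrank_add_finrank _ _).trans (by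
        have := finrank_span_le_card (R := F) ({v} : Set (Fin n → F))
        simp at this
        omega)
    have hts : ∀ {v : Fin n → F} {S : Submodule F (Fin n → F)}, h v v = 0 → (∀ s ∈ S, h s v = 0) →
        (∀ a ∈ S, ∀ c ∈ S, h a c = 0) → ∀ a ∈ Submodule.span F {v} ⊔ S, ∀ c ∈ Submodule.span F {v} ⊔ S, h a c = 0 := by
      intro v S hv hvS hS a ha c hc
      obtain ⟨a1, ha1, a2, ha2, rfl⟩ := Submodule.mem_sup.1 ha
      obtain ⟨c1, hc1, c2, hc2, rfl⟩ := Submodule.mem_sup.1 hc
      obtain ⟨s, rfl⟩ := Submodule.mem_span_singleton.1 ha1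
      obtain ⟨t, rfl⟩ := Submodule.mem_span_singleton.1 hc1
      have hvc : h v c2 = 0 := (Herm.eq_zero_comm hf).1 (hvS c2 hc2)
      rw [hf.add_left, Herm.add_right hf, Herm.add_right hf, hf.smul_left, hf.smul_left, Herm.smul_right hf,
        Herm.smul_right hf, hv, hvc, hvS a2 ha2, hS a2 ha2 c2 hc2]
      ring
    have hAe : ∀ s ∈ A, h s e = 0 := fun s hs => ((hmem s).1 (hAB ▸ Submodule.mem_sup_left hs)).2.1
    have hBe : ∀ s ∈ B, h s e' = 0 := fun s hs => ((hmem s).1 (hAB ▸ Submodule.mem_sup_right hs)).2.2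
    refine ⟨Submodule.span F {e} ⊔ A, Submodule.span F {e'} ⊔ B, le_antisymm ?_ ?_, hle hA, hle hB,
      hts hee hAe hAts, hts he'e' hBe hBts⟩
    · have hE'E : E' ≤ E := fun x hx => ((hmem x).1 hx).1
      refine sup_le (sup_le ?_ ?_) (sup_le ?_ ?_)
      · exact (Submodule.span_singleton_le_iff_mem _ _).2 he
      · exact (le_sup_left.trans hAB.le).trans hE'E
      · exact (Submodule.span_singleton_le_iff_mem _ _).2 he'
      · exact (le_sup_right.trans hAB.le).trans hE'E
    · intro x hx
      have h3 := hdec x hx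
      rw [← hAB] at h3
      obtain ⟨a, ha, b, hb, hab⟩ := Submodule.mem_sup.1 h3
      refine Submodule.mem_sup.2 ⟨h x e' • e + a, Submodule.add_mem_sup
        (Submodule.smul_mem _ _ (Submodule.mem_span_singleton_self e)) ha, h x e • e' + b,
        Submodule.add_mem_sup (Submodule.smul_mem _ _ (Submodule.mem_span_singleton_self e')) hb, ?_⟩
      calc h x e' • e + a + (h x e • e' + b) = h x e' • e + h x e • e' + (a + b) := by abel
        _ = x := by rw [hab]; abel

/-- A spanning pair of totally singular subspaces. -/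
theorem isPair_of_sup {U W : Submodule F (Fin n → F)} {k : ℕ} (hk : n = k + k) (hsup : U ⊔ W = ⊤)
    (hU : ∀ u ∈ U, ∀ v ∈ U, h u v = 0) (hW : ∀ u ∈ W, ∀ v ∈ W, h u v = 0) : IsPair U W k q := by
  have hf := Herm.isUnitary_std (n := n) hF
  have b1 := Herm.ti_bound hf U hU
  have b2 := Herm.ti_bound hf W hW
  rw [Fintype.card_fin] at b1 b2
  have h1 := Submodule.finrank_sup_add_finrank_inf_eq U W
  rw [hsup, finrank_top, Module.finrank_fin_fun] at h1
  refine ⟨⟨disjoint_iff.2 (Submodule.finrank_eq_zero.1 (by omega)), codisjoint_iff.2 hsup⟩, hU, hW, by omega,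
    by omega⟩

/-- For an element fixing a pair and a norm-one scalar, `x - c` has even rank. -/
theorem even_rank_of_fix {U W : Submodule F (Fin n → F)} {k : ℕ} (P : IsPair U W k q) (x : Cfsg.GU n F q)
    (hU : ∀ u ∈ U, (x.1 : Mat) *ᵥ u ∈ U) (hW : ∀ u ∈ W, (x.1 : Mat) *ᵥ u ∈ W) {c : F} (hc : c ^ (q + 1) = 1) :
    Even ((x.1 : Mat) - c • 1).rank := by
  have hf := Herm.isUnitary_std (n := n) hF
  set T := ((x.1 : Mat) - c • 1).mulVecLin with hT
  have hTv : ∀ v, T v = (x.1 : Mat) *ᵥ v - c • v := fun v => by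
    simp [hT, Matrix.sub_mulVec, Matrix.smul_mulVec]
  -- one inequality for either order of the members
  have key : ∀ {A B : Submodule F (Fin n → F)}, IsPair A B k q → (∀ u ∈ A, (x.1 : Mat) *ᵥ u ∈ A) →
      (∀ u ∈ B, (x.1 : Mat) *ᵥ u ∈ B) → finrank F (B.map T) ≤ finrank F (A.map T) := by
    intro A B PAB hA hB
    set S := A.map T
    have hSA : S ≤ A := by
      rintro _ ⟨u, hu, rfl⟩
      rw [hTv]; exact A.sub_mem (hA u hu) (A.smul_mem _ hu)
    set Y := B ⊓ Herm.perp hf S
    have hAp : A ≤ Herm.perp hf S := fun u hu => (Herm.mem_perpW hf).2 fun s hs => PAB.tsU u hu s (hSA hs)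
    have hdimY : n ≤ k + finrank F Y + finrank F S := by
      have h1 := Herm.finrank_perpW hf S
      rw [Fintype.card_fin] at h1
      have h2 : Herm.perp hf S = A ⊔ Y := by
        rw [← sup_inf_assoc_of_le B hAp, PAB.compl.sup_eq_top, top_inf_eq]
      have h3 := Submodule.finrank_add_le_finrank_add_finrank A Y
      rw [← h2, PAB.dimU] at h3
      omega
    have hYker : Y ≤ B ⊓ LinearMap.ker T := by
      rintro y ⟨hy, hyp⟩
      refine ⟨hy, ?_⟩
      have hinj : Function.Injective ((Matrix.toLin' (x.1 : Mat)).restrict (p := B) (q := B)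
          (fun v hv => by rw [Matrix.toLin'_apply]; exact hB v hv)) := fun a b hab => by
        have := congrArg Subtype.val hab
        simp only [LinearMap.restrict_coe_apply, Matrix.toLin'_apply] at this
        exact Subtype.ext (H98.gl_mulVec_injective x.1 this)
      obtain ⟨⟨w, hw⟩, hwy⟩ := LinearMap.surjective_of_injective hinj ⟨y, hy⟩
      have hxw : (x.1 : Mat) *ᵥ w = y := by simpa using congrArg Subtype.val hwy
      have hcc : c * c ^ q = 1 := by rw [← pow_succ', hc]
      have hwc : w - c ^ q • y = 0 := PAB.eq_zero hF (B.sub_mem hw (B.smul_mem _ hy)) fun u hu => by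
        have h1 : h (T u) y = 0 := (Herm.eq_zero_comm hf).1 ((Herm.mem_perpW hf).1 hyp _ ⟨u, hu, rfl⟩)
        rw [hTv, Herm.sub_left hf, hf.smul_left, ← hxw, H3.GU_preserves x] at h1
        rw [Herm.sub_right hf, Herm.smul_right hf, Herm.frobQ_apply, H3.pow_q_pow_q hF, ← hxw]
        exact h1
      show T y = 0
      rw [hTv, sub_eq_zero]
      have hw' : w = c ^ q • y := sub_eq_zero.1 hwc
      rw [hw', Matrix.mulVec_smul] at hxw
      calc (x.1 : Mat) *ᵥ y = (c * c ^ q) • ((x.1 : Mat) *ᵥ y) := by rw [hcc, one_smul]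
        _ = c • y := by rw [mul_smul, hxw]
    have h4 := Submodule.finrank_mono hYker
    have h5 : finrank F (B.map T) + finrank F ↥(B ⊓ LinearMap.ker T) = k := by
      have h6 := LinearMap.finrank_range_add_finrank_ker (T.domRestrict B)
      rw [LinearMap.range_domRestrict, PAB.dimW, LinearMap.ker_domRestrict] at h6
      have h7 := Submodule.finrank_map_subtype_eq B (Submodule.comap B.subtype (LinearMap.ker T))
      rw [Submodule.map_comap_subtype] at h7
      rw [h7]
      exact h6
    have := PAB.two_mul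
    omega
  have e1 := key P hU hW
  have e2 := key P.symm hW hU
  refine ⟨finrank F (U.map T), ?_⟩
  have hrange : LinearMap.range T = U.map T ⊔ W.map T := by
    rw [← Submodule.map_sup, P.compl.sup_eq_top, Submodule.map_top]
  have hdis : U.map T ⊓ W.map T = ⊥ := by
    rw [eq_bot_iff]
    rintro v ⟨⟨a, ha, rfl⟩, b, hb, hab⟩
    refine (Submodule.mem_bot F).2 (Submodule.disjoint_def.1 P.compl.disjoint _ ?_ ?_)
    · rw [hTv]; exact U.sub_mem (hU a ha) (U.smul_mem _ ha)
    · rw [← hab, hTv]; exact W.sub_mem (hW b hb) (W.smul_mem _ hb)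
  have h3 := Submodule.finrank_sup_add_finrank_inf_eq (U.map T) (W.map T)
  rw [hdis, finrank_bot] at h3
  rw [Matrix.rank, ← hT, hrange]
  omega

/-- For an element swapping a pair, `x - c` has rank at least `k`. -/
theorem rank_of_swap {U W : Submodule F (Fin n → F)} {k : ℕ} (P : IsPair U W k q) (x : GL (Fin n) F)
    (hU : ∀ u ∈ U, (x : Mat) *ᵥ u ∈ W) (c : F) : k ≤ ((x : Mat) - c • 1).rank := by
  set T := ((x : Mat) - c • 1).mulVecLin with hT
  have hinj : Function.Injective (T.domRestrict U) := by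
    rw [← LinearMap.ker_eq_bot, Submodule.eq_bot_iff]
    rintro ⟨u, hu⟩ hu0
    have h0 : (x : Mat) *ᵥ u = c • u := by
      have := LinearMap.mem_ker.1 hu0
      simpa [hT, Matrix.sub_mulVec, Matrix.smul_mulVec, sub_eq_zero] using this
    have hz : (x : Mat) *ᵥ u = 0 :=
      Submodule.disjoint_def.1 P.compl.disjoint _ (h0 ▸ U.smul_mem _ hu) (hU u hu)
    exact Subtype.ext (H98.gl_mulVec_injective x (hz.trans (Matrix.mulVec_zero _).symm))
  have h1 := LinearMap.finrank_range_of_inj hinj
  rw [LinearMap.range_domRestrict, P.dimU] at h1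
  rw [Matrix.rank, ← h1, ← hT]
  exact Submodule.finrank_mono LinearMap.map_le_range

end Cfsg.Agent.H19.UPair
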