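import Cfsg.Agent.H19.UnitaryPairIndex
import Cfsg.Agent.H3.Count
import Cfsg.Agent.H97.Semisimple

/-! Elements of prime order in `SU` and fixed pairs of complementary totally singular subspaces. -/

set_option autoImplicit false
set_option linter.unusedSectionVars false
set_option linter.style.haveILetI false

namespace Cfsg.Agent.H19.UPair

open scoped Matrix
open Module Cfsg.Agent.H98

variable {F : Type*} [Field F] [Fintype F] {q n : ℕ} (hF : Fintype.card F = q ^ 2)

local notation "Mat" => Matrix (Fin n) (Fin n) F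
local notation "h" => Cfsg.hermForm n F q

include hF

/-- The image of a pair under an isometry is a pair. -/
theorem IsPair.map {U W : Submodule F (Fin n → F)} {k : ℕ} (P : IsPair U W k q) (g : Cfsg.GU n F q) :
    IsPair (U.map (Matrix.toLin' (g.1 : Mat))) (W.map (Matrix.toLin' (g.1 : Mat))) k q := by
  have hinj : Function.Injective (Matrix.toLin' (g.1 : Mat)) := fun a b hab =>
    H98.gl_mulVec_injective g.1 (by simpa using hab)
  have hsurj : Function.Surjective (Matrix.toLin' (g.1 : Mat)) :=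
    LinearMap.surjective_of_injective hinj
  refine ⟨⟨?_, ?_⟩, ?_, ?_, ?_, ?_⟩
  · rw [disjoint_iff, ← Submodule.map_inf _ hinj, P.compl.inf_eq_bot, Submodule.map_bot]
  · rw [codisjoint_iff, ← Submodule.map_sup, P.compl.sup_eq_top, Submodule.map_top]
    exact LinearMap.range_eq_top.2 hsurj
  · rintro _ ⟨u, hu, rfl⟩ _ ⟨v, hv, rfl⟩
    rw [Matrix.toLin'_apply, Matrix.toLin'_apply, H3.GU_preserves]
    exact P.tsU u hu v hv
  · rintro _ ⟨u, hu, rfl⟩ _ ⟨v, hv, rfl⟩
    rw [Matrix.toLin'_apply, Matrix.toLin'_apply, H3.GU_preserves]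
    exact P.tsW u hu v hv
  · rw [← (Submodule.equivMapOfInjective _ hinj U).finrank_eq, P.dimU]
  · rw [← (Submodule.equivMapOfInjective _ hinj W).finrank_eq, P.dimW]

omit hF in
/-- A matrix whose difference with a scalar has odd rank, in even dimension, is not scalar. -/
theorem ne_scalar_of_odd_rank (hn : Even n) (M : Mat) {c : F} (hodd : Odd (M - c • 1).rank) (z : F) :
    M ≠ z • 1 := by
  rintro rfl
  rw [← sub_smul] at hodd
  rcases eq_or_ne (z - c) 0 with h0 | h0
  · rw [h0, zero_smul, Matrix.rank_zero] at hodd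
    exact (by decide : ¬ Odd 0) hodd
  · have hu : IsUnit ((z - c) • (1 : Mat)) := (Matrix.isUnit_iff_isUnit_det _).2 (by
      simp [Matrix.det_smul, h0])
    rw [Matrix.rank_of_isUnit _ hu, Fintype.card_fin] at hodd
    exact Nat.not_even_iff_odd.2 hodd hn

/-- An element for which `x - c` has odd rank fixes no pair. -/
theorem not_conj {D : Fin 2 → Submodule F (Fin n → F)} {k : ℕ} (P : IsPair (D 0) (D 1) k q) (hk : 0 < k)
    (x : Cfsg.GU n F q) {c : F} (hc : c ^ (q + 1) = 1) (hodd : Odd ((x.1 : Mat) - c • 1).rank)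
    (hsw : ((x.1 : Mat) - c • 1).rank < k ∨ ∃ r, Odd r ∧ (x.1 : GL (Fin n) F) ^ r = 1) :
    ¬ ∃ g ∈ Cfsg.GU n F q ⊓ Cfsg.Geo.specialLinear (Fin n) F,
      g⁻¹ * x.1 * g ∈ Cfsg.Geo.decompositionStabilizer D := by
  rintro ⟨g, hg, σ, hσ⟩
  have P' := P.map hF ⟨g, hg.1⟩
  -- the action of `x` on the moved members
  have hact : ∀ i, ((D i).map (Matrix.toLin' (g : Mat))).map (Matrix.toLin' (x.1 : Mat)) =
      (D (σ i)).map (Matrix.toLin' (g : Mat)) := fun i => by
    rw [← hσ i, ← Submodule.map_comp, ← Submodule.map_comp, ← Matrix.toLin'_mul, ← Matrix.toLin'_mul,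
      ← Units.val_mul, ← Units.val_mul, show g * (g⁻¹ * x.1 * g) = x.1 * g by group]
  by_cases h0 : σ 0 = 0
  · have h1 : σ 1 = 1 := by
      rcases (show σ 1 = 0 ∨ σ 1 = 1 by omega) with h1 | h1
      · exact absurd (σ.injective (h1.trans h0.symm)) (by decide)
      · exact h1
    have hU := hact 0
    have hW := hact 1
    rw [h0] at hU; rw [h1] at hW
    refine Nat.not_even_iff_odd.2 hodd (even_rank_of_fix hF P' x (fun u hu => ?_) (fun u hu => ?_) hc)
    · rw [← Matrix.toLin'_apply]; exact hU.le ⟨u, hu, rfl⟩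
    · rw [← Matrix.toLin'_apply]; exact hW.le ⟨u, hu, rfl⟩
  · have h0' : σ 0 = 1 := by omega
    have h1 : σ 1 = 0 := by
      rcases (show σ 1 = 0 ∨ σ 1 = 1 by omega) with h1 | h1
      · exact h1
      · exact absurd (σ.injective (h1.trans h0'.symm)) (by decide)
    have hU := hact 0
    have hW := hact 1
    rw [h0'] at hU; rw [h1] at hW
    have hU' : ∀ u ∈ (D 0).map (Matrix.toLin' (g : Mat)), (x.1 : Mat) *ᵥ u ∈ (D 1).map (Matrix.toLin' (g : Mat)) :=
      fun u hu => by rw [← Matrix.toLin'_apply]; exact hU.le ⟨u, hu, rfl⟩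
    have hW' : ∀ u ∈ (D 1).map (Matrix.toLin' (g : Mat)), (x.1 : Mat) *ᵥ u ∈ (D 0).map (Matrix.toLin' (g : Mat)) :=
      fun u hu => by rw [← Matrix.toLin'_apply]; exact hW.le ⟨u, hu, rfl⟩
    rcases hsw with hlt | ⟨r, ⟨m, rfl⟩, hr⟩
    · exact absurd (rank_of_swap hF P' x.1 hU' c) (not_le.2 hlt)
    · have heven : ∀ (m : ℕ) (u), u ∈ (D 0).map (Matrix.toLin' (g : Mat)) →
          ((x.1 ^ (2 * m) : GL (Fin n) F) : Mat) *ᵥ u ∈ (D 0).map (Matrix.toLin' (g : Mat)) := by
        intro m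
        induction m with
        | zero => intro u hu; simpa using hu
        | succ m ih =>
          intro u hu
          rw [Nat.mul_succ, pow_add, Units.val_mul, ← Matrix.mulVec_mulVec]
          refine ih _ ?_
          rw [pow_two, Units.val_mul, ← Matrix.mulVec_mulVec]
          exact hW' _ (hU' u hu)
      obtain ⟨u, hu, hu0⟩ := Submodule.exists_mem_ne_zero_of_ne_bot
        (p := (D 0).map (Matrix.toLin' (g : Mat))) (fun hbot => by
          have := P'.dimU
          rw [hbot, finrank_bot] at this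
          omega)
      have h2 : ((x.1 ^ (2 * m + 1) : GL (Fin n) F) : Mat) *ᵥ u ∈ (D 1).map (Matrix.toLin' (g : Mat)) := by
        rw [pow_succ', Units.val_mul, ← Matrix.mulVec_mulVec]
        exact hU' _ (heven m u hu)
      rw [hr, Units.val_one, Matrix.one_mulVec] at h2
      exact hu0 (Submodule.disjoint_def.1 P'.compl.disjoint u hu h2)

/-- Existence of an element of given multiplicative order. -/
theorem exists_orderOf {d : ℕ} (hd : d ∣ (q - 1) * (q + 1)) : ∃ η : Fˣ, orderOf η = d := by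
  obtain ⟨g, hg⟩ := IsCyclic.exists_generator (α := Fˣ)
  have hord : orderOf g = (q - 1) * (q + 1) := by
    rw [orderOf_eq_card_of_forall_mem_zpowers hg, H3.card_units_eq hF]
  exact ⟨g ^ (orderOf g / d), orderOf_pow_orderOf_div (orderOf_pos g).ne' (hord ▸ hd)⟩

/-- A transvection is a witness for the characteristic. -/
theorem witness_char (hn : 2 ≤ n) {p : ℕ} [Fact p.Prime] [CharP F p] :
    ∃ x : Cfsg.GU n F q, x.1 ∈ Cfsg.Geo.specialLinear (Fin n) F ∧ x.1 ^ p = 1 ∧
      ((x.1 : Mat) - (1 : F) • 1).rank = 1 := by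
  classical
  have hf := Herm.isUnitary_std (n := n) hF
  obtain ⟨v, hv0, hv⟩ := H3.exists_isotropic hF hn
  obtain ⟨d, hd0, hd⟩ := Herm.exists_skew hf
  obtain ⟨hx1, hx2⟩ := Herm.uT_mem_su hF hv hd
  set x := Herm.uT hf hv d
  have hN : ∀ y, ((x : Mat) - 1) *ᵥ y = (d * h y v) • v := fun y => by
    rw [Matrix.sub_mulVec, Matrix.one_mulVec, Herm.uT_mulVec, add_sub_cancel_left]
  have hN2 : ((x : Mat) - 1) ^ 2 = 0 := by
    refine Matrix.ext_of_mulVec_single fun i => ?_
    rw [pow_two, ← Matrix.mulVec_mulVec, hN, hN, hf.smul_left, hv, Matrix.zero_mulVec]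
    simp
  refine ⟨⟨x, hx1⟩, hx2, Units.ext ?_, ?_⟩
  · show ((x ^ p : GL (Fin n) F) : Mat) = 1
    rw [Units.val_pow_eq_pow_val]
    haveI : Nonempty (Fin n) := ⟨⟨0, by omega⟩⟩
    haveI : CharP Mat p := inferInstance
    conv_lhs => rw [show (x : Mat) = ((x : Mat) - 1) + 1 by abel]
    rw [add_pow_char_of_commute p (Commute.one_right _), one_pow,
      pow_eq_zero_of_le (Fact.out : p.Prime).two_le hN2, zero_add]
  · show ((x : Mat) - (1 : F) • 1).rank = 1
    rw [one_smul, Matrix.rank]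
    have hr : LinearMap.range ((x : Mat) - 1).mulVecLin = Submodule.span F {v} := by
      refine le_antisymm ?_ ((Submodule.span_singleton_le_iff_mem _ _).2 ?_)
      · rintro _ ⟨y, rfl⟩
        rw [Matrix.mulVecLin_apply, hN]
        exact Submodule.smul_mem _ _ (Submodule.mem_span_singleton_self v)
      · obtain ⟨y, hy⟩ := (hf.nondegenerate v hv0).1
        refine ⟨(d * h y v)⁻¹ • y, ?_⟩
        rw [map_smul, Matrix.mulVecLin_apply, hN, smul_smul, inv_mul_cancel₀, one_smul]
        refine mul_ne_zero hd0 fun h0 => hy ?_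
        exact h0
    rw [hr, finrank_span_singleton hv0]

/-- A diagonal witness for `r = 2`. -/
theorem witness_two (hn : 2 ≤ n) (hne : Even n) (hq : Odd q) (hv : padicValNat 2 n < padicValNat 2 (q + 1)) :
    ∃ (x : Cfsg.GU n F q) (c : F), x.1 ∈ Cfsg.Geo.specialLinear (Fin n) F ∧
      (∃ z : F, ((x.1 ^ 2 : GL (Fin n) F) : Mat) = z • 1) ∧ c ^ (q + 1) = 1 ∧
      ((x.1 : Mat) - c • 1).rank = 1 := by
  classical
  set s := padicValNat 2 n
  have hdv : 2 ^ (s + 1) ∣ q + 1 := (Nat.pow_dvd_pow 2 hv).trans pow_padicValNat_dvd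
  obtain ⟨η, hη⟩ := exists_orderOf hF (hdv.trans (dvd_mul_left _ _))
  obtain ⟨m, hm⟩ : 2 ^ s ∣ n := pow_padicValNat_dvd
  have hmodd : Odd m := by
    rw [← Nat.not_even_iff_odd, even_iff_two_dvd]
    rintro ⟨e, rfl⟩
    have := pow_succ_padicValNat_not_dvd (p := 2) (n := n) (by omega)
    exact this ⟨e, hm.trans (by rw [pow_succ, mul_assoc])⟩
  have hneg : ((η : F) ^ 2 ^ s) = -1 := by
    have h1 : ((η : F) ^ 2 ^ s) * ((η : F) ^ 2 ^ s) = 1 := by
      rw [← pow_add, ← two_mul, ← pow_succ', ← Units.val_pow_eq_pow_val, ← hη, pow_orderOf_eq_one, Units.val_one]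
    rcases mul_self_eq_one_iff.1 h1 with h2 | h2
    · exfalso
      have : η ^ 2 ^ s = 1 := Units.ext (by simpa using h2)
      have h3 := Nat.le_of_dvd (by positivity) (hη ▸ orderOf_dvd_of_pow_eq_one this)
      rw [pow_succ] at h3
      have : 0 < 2 ^ s := by positivity
      omega
    · exact h2
  have hn1 : (η : F) ^ n = -1 := by rw [hm, pow_mul, hneg, hmodd.neg_one_pow]
  have hq1 : (η : F) ^ (q + 1) = 1 := by
    obtain ⟨e, he⟩ := hdv
    rw [he, pow_mul, ← Units.val_pow_eq_pow_val, ← hη, pow_orderOf_eq_one, Units.val_one, one_pow]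
  have hchar : (2 : F) ≠ 0 := Ring.two_ne_zero (by
    intro h2
    have := (FiniteField.even_card_iff_char_two (F := F)).1 h2
    rw [hF, ← Nat.dvd_iff_mod_eq_zero] at this
    obtain ⟨e, he⟩ := hq
    have h3 := Nat.prime_two.dvd_of_dvd_pow this
    omega)
  let i₀ : Fin n := ⟨0, by omega⟩
  let d : Fin n → F := Function.update (fun _ => (η : F)) i₀ (-(η : F))
  have hd : ∀ i, d i ^ (q + 1) = 1 := fun i => by
    by_cases hi : i = i₀
    · subst hi
      simp only [d, Function.update_self]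
      rw [Even.neg_pow (by obtain ⟨e, he⟩ := hq; exact ⟨e + 1, by omega⟩), hq1]
    · simp [d, hi, hq1]
  refine ⟨H3.guDiag d hd, η, ?_, ⟨(η : F) ^ 2, ?_⟩, hq1, ?_⟩
  · show Matrix.GeneralLinearGroup.det _ = 1
    ext
    show (Matrix.diagonal d).det = 1
    rw [Matrix.det_diagonal, Finset.prod_update_of_mem (Finset.mem_univ _), Finset.prod_const,
      Finset.card_sdiff_of_subset (by simp), Finset.card_univ, Fintype.card_fin, Finset.card_singleton, neg_mul,
      ← pow_succ', Nat.sub_add_cancel (by omega), hn1, neg_neg]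
  · show ((Units.val _) : Mat) = _
    rw [Units.val_pow_eq_pow_val]
    show Matrix.diagonal d ^ 2 = _
    rw [Matrix.diagonal_pow, Matrix.smul_one_eq_diagonal]
    congr 1
    funext i
    by_cases hi : i = i₀ <;> simp [d, hi]
  · show (Matrix.diagonal d - (η : F) • (1 : Mat)).rank = 1
    rw [Matrix.smul_one_eq_diagonal, Matrix.diagonal_sub, Matrix.rank_diagonal,
      Fintype.card_eq_one_iff]
    refine ⟨⟨i₀, ?_⟩, fun y => Subtype.ext ?_⟩
    · simp only [d, Function.update_self]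
      intro h0
      have h1 : (2 : F) * (η : F) = 0 := by linear_combination -h0
      exact (mul_ne_zero hchar η.ne_zero) h1
    · by_contra hy
      exact y.2 (by simp [d, hy])

/-- A diagonal witness for odd primes dividing `q + 1`. -/
theorem witness_torus (hn : 2 ≤ n) (hne : Even n) {r : ℕ} (hr : r.Prime) (hr2 : r ≠ 2) (hrq : r ∣ q + 1) :
    ∃ (x : Cfsg.GU n F q) (c : F), x.1 ∈ Cfsg.Geo.specialLinear (Fin n) F ∧
      x.1 ^ r = 1 ∧ c ^ (q + 1) = 1 ∧ Odd ((x.1 : Mat) - c • 1).rank := by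
  classical
  obtain ⟨ζ, hζ⟩ := exists_orderOf hF (hrq.trans (dvd_mul_left _ (q - 1)))
  have hζr : (ζ : F) ^ r = 1 := by rw [← Units.val_pow_eq_pow_val, ← hζ, pow_orderOf_eq_one, Units.val_one]
  obtain ⟨e, he⟩ := hrq
  have hζq : (ζ : F) ^ (q + 1) = 1 := by rw [he, pow_mul, hζr, one_pow]
  have hζ1 : (ζ : F) ≠ 1 := fun h1 => hr.one_lt.ne' (by
    rw [← hζ, show ζ = 1 from Units.ext (by simpa using h1), orderOf_one])
  have hζi : (ζ : F)⁻¹ ≠ ζ := fun h1 => by
    have h2 : ζ ^ 2 = 1 := Units.ext (by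
      rw [Units.val_pow_eq_pow_val, pow_two, Units.val_one]
      nth_rewrite 1 [← h1]
      exact inv_mul_cancel₀ ζ.ne_zero)
    have h3 := hζ ▸ orderOf_dvd_of_pow_eq_one h2
    exact hr2 ((Nat.prime_dvd_prime_iff_eq hr Nat.prime_two).1 h3)
  let i₀ : Fin n := ⟨0, by omega⟩
  let i₁ : Fin n := ⟨1, by omega⟩
  have h01 : i₁ ≠ i₀ := by simp [i₀, i₁, Fin.ext_iff]
  let d : Fin n → F := fun i => if i = i₀ then (ζ : F) else if i = i₁ then (ζ : F)⁻¹ else 1
  have hd : ∀ i, d i ^ (q + 1) = 1 := fun i => by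
    simp only [d]
    split_ifs <;> simp [inv_pow, hζq]
  refine ⟨H3.guDiag d hd, ζ, ?_, Units.ext ?_, hζq, ?_⟩
  · show Matrix.GeneralLinearGroup.det _ = 1
    ext
    show (Matrix.diagonal d).det = 1
    rw [Matrix.det_diagonal, ← Finset.prod_subset (s₁ := {i₀, i₁}) (Finset.subset_univ _) (fun i _ hi => by
      simp only [Finset.mem_insert, Finset.mem_singleton, not_or] at hi
      simp [d, hi.1, hi.2]), Finset.prod_pair h01.symm]
    simp [d, h01, ζ.ne_zero]
  · show ((Units.val _) : Mat) = _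
    rw [Units.val_pow_eq_pow_val]
    show Matrix.diagonal d ^ r = _
    rw [Matrix.diagonal_pow, Units.val_one, ← Matrix.diagonal_one]
    congr 1
    funext i
    simp only [d, Pi.pow_apply]
    split_ifs <;> simp [inv_pow, hζr]
  · show Odd (Matrix.diagonal d - (ζ : F) • (1 : Mat)).rank
    rw [Matrix.smul_one_eq_diagonal, Matrix.diagonal_sub, Matrix.rank_diagonal,
      Fintype.card_congr (Equiv.subtypeEquivRight (q := fun i => i ≠ i₀) fun i => ?_),
      Fintype.card_subtype_compl, Fintype.card_fin, Fintype.card_subtype_eq]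
    · exact Nat.Even.sub_odd (by omega) hne odd_one
    · simp only [d, sub_ne_zero]
      constructor
      · intro h1 h2; exact h1 (if_pos h2)
      · intro h1
        rw [if_neg h1]
        split_ifs
        · exact hζi
        · exact hζ1.symm

/-- A block witness. -/
theorem witness_block (m : ℕ) {j r : ℕ} (hr : r.Prime) (hr2 : r ≠ 2) (hrF : (r : F) ≠ 0) (hrq : ¬ r ∣ q + 1)
    (hj : j = orderOf (-(q : ZMod r))) (hjodd : Odd j) :
    ∃ x : Cfsg.GU (j + m) F q, x.1 ∈ Cfsg.Geo.specialLinear (Fin (j + m)) F ∧ x.1 ^ r = 1 ∧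
      ((x.1 : Matrix (Fin (j + m)) (Fin (j + m)) F) - (1 : F) • 1).rank = j := by
  classical
  haveI : Fact r.Prime := ⟨hr⟩
  haveI : NeZero r := ⟨hr.ne_zero⟩
  have hjq : (-(q : ZMod r)) ^ j = 1 := hj ▸ pow_orderOf_eq_one _
  have hdvd : r ∣ q ^ j + 1 := by
    rw [← ZMod.natCast_eq_zero_iff]
    push_cast
    rw [hjodd.neg_pow] at hjq
    linear_combination -hjq
  have hcard : r ∣ Nat.card (Cfsg.GU j F q) := by
    rw [H3.card_GU hF]
    refine (dvd_trans ?_ (dvd_mul_left _ _))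
    obtain ⟨e, he⟩ := hjodd
    refine dvd_trans ?_ (Finset.dvd_prod_of_mem _ (Finset.mem_range.2 (show j - 1 < j by omega)))
    rw [if_pos ⟨e, by omega⟩, show j - 1 + 1 = j by omega]
    exact hdvd
  obtain ⟨a, ha⟩ := exists_prime_orderOf_dvd_card' r hcard
  have har : a ^ r = 1 := ha ▸ pow_orderOf_eq_one a
  have hord : orderOf (Nat.card F : ZMod r) = j := by
    rw [Nat.card_eq_fintype_card, hF, Nat.cast_pow, show ((q : ZMod r)) ^ 2 = (-(q : ZMod r)) ^ 2 by ring,
      Nat.Coprime.orderOf_pow (hj ▸ (Nat.coprime_two_right.2 hjodd)), hj]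
  set A : Module.End F (Fin j → F) := Matrix.toLin' (a.1 : Matrix (Fin j) (Fin j) F) with hA
  have hAr : A ^ r = 1 := by
    rw [hA, ← Matrix.toLin'_pow, ← Units.val_pow_eq_pow_val, ← SubgroupClass.coe_pow, har]
    show Matrix.toLin' (1 : Matrix (Fin j) (Fin j) F) = 1
    rw [Matrix.toLin'_one]; rfl
  obtain ⟨l, hl⟩ := H97.finrank_inv_eq hrF A hAr ⊤ le_top
  rw [finrank_top, Module.finrank_fin_fun, hord, top_inf_eq] at hl
  have hfix : finrank F (H97.fixedSpace A) < j := by
    by_contra hge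
    have htop : H97.fixedSpace A = ⊤ := Submodule.eq_top_of_finrank_eq (le_antisymm
      ((Submodule.finrank_le _).trans le_rfl) (by rw [Module.finrank_fin_fun]; omega))
    have ha1 : a = 1 := H3.GU_ext fun v => by
      have := H97.mem_fixedSpace.1 (htop ▸ Submodule.mem_top (x := v))
      simpa [hA] using this
    rw [ha1, orderOf_one] at ha
    exact hr.one_lt.ne' ha.symm
  have hl1 : l = 1 := by
    rcases Nat.lt_or_ge l 2 with h2 | h2
    · rcases Nat.eq_zero_or_pos l with rfl | h3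
      · omega
      · omega
    · have := Nat.mul_le_mul_right j h2
      omega
  rw [hl1, one_mul] at hl
  have hf0 : H97.fixedSpace A = ⊥ := Submodule.finrank_eq_zero.1 (by omega)
  have hinjA : Function.Injective ⇑(A - 1) := LinearMap.ker_eq_bot.1 hf0
  have hsurjA : Function.Surjective ⇑(A - 1) := LinearMap.surjective_of_injective hinjA
  have hdet : (a.1 : Matrix (Fin j) (Fin j) F).det = 1 := by
    have h1 := H3.det_GU hF a
    have h2 : (a.1 : Matrix (Fin j) (Fin j) F).det ^ r = 1 := by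
      rw [← Matrix.det_pow, ← Units.val_pow_eq_pow_val, ← SubgroupClass.coe_pow, har]
      exact Matrix.det_one
    have h3 := Nat.dvd_gcd (orderOf_dvd_of_pow_eq_one h1) (orderOf_dvd_of_pow_eq_one h2)
    rw [Nat.Coprime.gcd_eq_one ((hr.coprime_iff_not_dvd.2 hrq).symm), Nat.dvd_one, orderOf_eq_one_iff] at h3
    exact h3
  set x := H3.guBlock (F := F) (q := q) j m (a, 1) with hx
  refine ⟨x, ?_, ?_, ?_⟩
  · show Matrix.GeneralLinearGroup.det x.1 = 1
    ext
    show (x.1 : Matrix (Fin (j + m)) (Fin (j + m)) F).det = 1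
    rw [hx]
    show (H3.glBlock j m (a.1, 1) : Matrix (Fin (j + m)) (Fin (j + m)) F).det = 1
    rw [H3.det_glBlock, hdet]
    simp
  · rw [← SubgroupClass.coe_pow, hx, ← map_pow]
    simp only [Prod.pow_mk, har, one_pow]
    rw [show ((1, 1) : Cfsg.GU j F q × Cfsg.GU m F q) = 1 from rfl, map_one, OneMemClass.coe_one]
  · rw [one_smul, Matrix.rank]
    let L : (Fin j → F) →ₗ[F] (Fin (j + m) → F) :=
      { toFun := fun u => Fin.append u 0
        map_add' := fun u v => by
          funext i; refine Fin.addCases (fun i => ?_) (fun i => ?_) i <;> simp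
        map_smul' := fun t u => by
          funext i; refine Fin.addCases (fun i => ?_) (fun i => ?_) i <;> simp }
    have hT : ∀ (u : Fin j → F) (v : Fin m → F),
        ((x.1 : Matrix (Fin (j + m)) (Fin (j + m)) F) - 1) *ᵥ Fin.append u v = L ((A - 1) u) := fun u v => by
      rw [Matrix.sub_mulVec, Matrix.one_mulVec, hx, H3.guBlock_mulVec]
      funext i
      refine Fin.addCases (fun i => ?_) (fun i => ?_) i <;> simp [L, hA]
    have hrange : LinearMap.range ((x.1 : Matrix (Fin (j + m)) (Fin (j + m)) F) - 1).mulVecLin =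
        LinearMap.range L := by
      refine le_antisymm ?_ ?_
      · rintro _ ⟨y, rfl⟩
        rw [Matrix.mulVecLin_apply, ← Fin.append_castAdd_natAdd (f := y), hT]
        exact ⟨_, rfl⟩
      · rintro _ ⟨u, rfl⟩
        obtain ⟨u', rfl⟩ := hsurjA u
        exact ⟨Fin.append u' 0, by rw [Matrix.mulVecLin_apply, hT]⟩
    rw [hrange, LinearMap.finrank_range_of_inj, Module.finrank_fin_fun]
    intro u v huv
    funext i
    have := congrFun huv (Fin.castAdd m i)
    simpa [L] using this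

/-- The square of an element which is scalar in odd characteristic gives a fixed pair. -/
theorem conj_of_sq {D : Fin 2 → Submodule F (Fin n → F)} {k : ℕ} (P : IsPair (D 0) (D 1) k q) (hk : 0 < k)
    (hq : Odd q) (hv : padicValNat 2 (q + 1) ≤ padicValNat 2 n) (x : Cfsg.GU n F q)
    (hx : x.1 ∈ Cfsg.Geo.specialLinear (Fin n) F) {z : F} (hz : ((x.1 ^ 2 : GL (Fin n) F) : Mat) = z • 1) :
    ∃ g ∈ Cfsg.GU n F q ⊓ Cfsg.Geo.specialLinear (Fin n) F,
      g⁻¹ * x.1 * g ∈ Cfsg.Geo.decompositionStabilizer D := by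
  classical
  have hf := Herm.isUnitary_std (n := n) hF
  have hn := P.two_mul
  obtain ⟨t, ht⟩ := hq
  have hchar : ringChar F ≠ 2 := by
    intro h2
    have := (FiniteField.even_card_iff_char_two (F := F)).1 h2
    rw [hF, ← Nat.dvd_iff_mod_eq_zero] at this
    have h3 := Nat.prime_two.dvd_of_dvd_pow this
    omega
  have h2ne : (2 : F) ≠ 0 := Ring.two_ne_zero hchar
  have hxx : ∀ v, (x.1 : Mat) *ᵥ ((x.1 : Mat) *ᵥ v) = z • v := fun v => by
    rw [Matrix.mulVec_mulVec, ← pow_two, ← Units.val_pow_eq_pow_val, hz, Matrix.smul_mulVec, Matrix.one_mulVec]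
  -- the scalar has norm one
  have hzq : z ^ (q + 1) = 1 := by
    let e : Fin n → F := Pi.single ⟨0, by omega⟩ 1
    have he : h e e = 1 := by simp [e, H3.hermForm_single_left]
    have h1 := H3.GU_preserves x ((x.1 : Mat) *ᵥ e) ((x.1 : Mat) *ᵥ e)
    rw [hxx, H3.GU_preserves, hf.smul_left, Herm.smul_right hf, Herm.frobQ_apply, he, mul_one, ← pow_succ'] at h1
    exact h1
  have hz0 : z ≠ 0 := by intro h0; rw [h0, zero_pow (by omega)] at hzq; exact zero_ne_one hzq
  obtain ⟨w, rfl⟩ : IsSquare z := by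
    rw [FiniteField.isSquare_iff hchar hz0, hF]
    have h1 : q ^ 2 / 2 = (q + 1) * t := by
      subst ht
      rw [show (2 * t + 1) ^ 2 = 1 + 2 * ((2 * t + 1 + 1) * t) by ring, Nat.add_mul_div_left _ _ (by omega)]
      omega
    rw [h1, pow_mul, hzq, one_pow]
  have hw : w ≠ 0 := fun h0 => hz0 (by rw [h0, mul_zero])
  let E : F → Submodule F (Fin n → F) := fun s => LinearMap.ker ((Matrix.toLin' (x.1 : Mat)) - s • LinearMap.id)
  have hE : ∀ s v, v ∈ E s ↔ (x.1 : Mat) *ᵥ v = s • v := fun s v => by simp [E, sub_eq_zero]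
  have hsplit : ∀ v, v = (2 * w)⁻¹ • ((x.1 : Mat) *ᵥ v + w • v) + (2 * w)⁻¹ • (w • v - (x.1 : Mat) *ᵥ v) := by
    intro v
    rw [← smul_add, show (x.1 : Mat) *ᵥ v + w • v + (w • v - (x.1 : Mat) *ᵥ v) = w • v + w • v by abel, ← add_smul,
      ← two_mul, smul_smul, inv_mul_cancel₀ (mul_ne_zero h2ne hw), one_smul]
  have hsup : E w ⊔ E (-w) = ⊤ := eq_top_iff.2 fun v _ => by
    rw [hsplit v]
    refine Submodule.add_mem_sup (Submodule.smul_mem _ _ ?_) (Submodule.smul_mem _ _ ?_)
    · rw [hE, Matrix.mulVec_add, hxx, Matrix.mulVec_smul, smul_add, smul_smul, add_comm]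
    · rw [hE, Matrix.mulVec_sub, hxx, Matrix.mulVec_smul, smul_sub, smul_smul]
      simp only [neg_mul, neg_smul]
      abel
  have hcompl : IsCompl (E w) (E (-w)) := ⟨Submodule.disjoint_def.2 fun v h1 h2 => by
    rw [hE] at h1 h2
    rw [h1, neg_smul, eq_neg_iff_add_eq_zero, ← add_smul, ← two_mul] at h2
    exact (smul_eq_zero.1 h2).resolve_left (mul_ne_zero h2ne hw), codisjoint_iff.2 hsup⟩
  have horth : ∀ s u, s * u ^ q ≠ 1 → ∀ a ∈ E s, ∀ b ∈ E u, h a b = 0 := fun s u hsu a ha b hb => by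
    have h1 := H3.GU_preserves x a b
    rw [(hE s a).1 ha, (hE u b).1 hb, hf.smul_left, Herm.smul_right hf, Herm.frobQ_apply, ← mul_assoc] at h1
    by_contra h0
    exact hsu (mul_right_cancel₀ h0 (h1.trans (one_mul _).symm))
  -- conjugating a preserved pair to the given one
  suffices H : ∃ U W, IsPair U W k q ∧ (∀ u ∈ U, (x.1 : Mat) *ᵥ u ∈ U) ∧ ∀ u ∈ W, (x.1 : Mat) *ᵥ u ∈ W by
    obtain ⟨U, W, P', hU, hW⟩ := H
    obtain ⟨g, hg, hgU, hgW⟩ := exists_su_map hF P P' hk
    refine ⟨g, hg, 1, fun i => ?_⟩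
    have hinj : ∀ M : GL (Fin n) F, Function.Injective (Matrix.toLin' (M : Mat)) := fun M a b hab =>
      H98.gl_mulVec_injective M (by simpa using hab)
    have key : ∀ (V V' : Submodule F (Fin n → F)), finrank F V = finrank F V' →
        (∀ u ∈ V, (g : Mat) *ᵥ u ∈ V') → (∀ u ∈ V', (x.1 : Mat) *ᵥ u ∈ V') →
        V.map (Matrix.toLin' ((g⁻¹ * x.1 * g : GL (Fin n) F) : Mat)) = V := by
      intro V V' hdim hV hV'
      have himg : V.map (Matrix.toLin' (g : Mat)) = V' :=
        Submodule.eq_of_le_of_finrank_eq (by rintro _ ⟨u, hu, rfl⟩; simpa using hV u hu)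
          (by rw [← (Submodule.equivMapOfInjective _ (hinj g) V).finrank_eq, hdim])
      refine Submodule.eq_of_le_of_finrank_eq ?_
        (Submodule.equivMapOfInjective _ (hinj _) V).finrank_eq.symm
      rintro _ ⟨u, hu, rfl⟩
      obtain ⟨u', hu', huu⟩ := himg.ge (hV' _ (hV u hu))
      rw [Matrix.toLin'_apply] at huu
      rw [Matrix.toLin'_apply, Units.val_mul, Units.val_mul, ← Matrix.mulVec_mulVec, ← Matrix.mulVec_mulVec, ← huu,
        Matrix.mulVec_mulVec, ← Units.val_mul, inv_mul_cancel, Units.val_one, Matrix.one_mulVec]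
      exact hu'
    rw [Equiv.Perm.coe_one, id]
    fin_cases i
    · exact key _ _ (P.dimU.trans P'.dimU.symm) hgU hU
    · exact key _ _ (P.dimW.trans P'.dimW.symm) hgW hW
  have hweven : Even (q + 1) := ⟨t + 1, by omega⟩
  have hN : w ^ (q + 1) * w ^ (q + 1) = 1 := by rw [← mul_pow, hzq]
  rcases mul_self_eq_one_iff.1 hN with hN1 | hN1
  · -- orthogonal eigenspaces
    have h1 : w * (-w) ^ q ≠ 1 := by
      rw [Odd.neg_pow ⟨t, ht⟩, mul_neg, ← pow_succ', hN1]
      exact fun h0 => h2ne (by linear_combination -h0)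
    have h1' : -w * w ^ q ≠ 1 := by
      rw [neg_mul, ← pow_succ', hN1]
      exact fun h0 => h2ne (by linear_combination -h0)
    have hnd : ∀ {A B : Submodule F (Fin n → F)}, A ⊔ B = ⊤ → (∀ a ∈ A, ∀ b ∈ B, h a b = 0) →
        ∀ a ∈ A, (∀ y ∈ A, h a y = 0) → a = 0 := by
      intro A B hAB hAB0 a ha h0
      by_contra hne
      obtain ⟨y, hy⟩ := (hf.nondegenerate a hne).1
      refine hy ?_
      obtain ⟨y1, hy1, y2, hy2, rfl⟩ := Submodule.mem_sup.1 (hAB.ge (Submodule.mem_top (x := y)))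
      rw [hf.add_left, (Herm.eq_zero_comm hf).1 (h0 y1 hy1), (Herm.eq_zero_comm hf).1 (hAB0 a ha y2 hy2), add_zero]
    -- dimensions are even
    have hdetx : (x.1 : Mat).det = 1 := by
      have := congrArg Units.val hx
      simpa [Matrix.GeneralLinearGroup.val_det_apply] using this
    have hdim := Submodule.finrank_add_eq_of_isCompl hcompl
    rw [Module.finrank_fin_fun] at hdim
    have hdet : w ^ finrank F (E w) * (-w) ^ finrank F (E (-w)) = 1 := by
      have hTe : Matrix.toLin' (x.1 : Mat) = ((Submodule.prodEquivOfIsCompl _ _ hcompl).toLinearMap ∘ₗ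
          LinearMap.prodMap (w • LinearMap.id) ((-w) • LinearMap.id)) ∘ₗ
          (Submodule.prodEquivOfIsCompl _ _ hcompl).symm.toLinearMap := by
        refine LinearMap.ext fun v => ?_
        obtain ⟨⟨⟨a, ha⟩, ⟨b, hb⟩⟩, rfl⟩ := (Submodule.prodEquivOfIsCompl _ _ hcompl).surjective v
        simp only [LinearMap.comp_apply, LinearEquiv.coe_coe, LinearEquiv.symm_apply_apply]
        simp [Matrix.mulVec_add, (hE w a).1 ha, (hE (-w) b).1 hb]
      rw [← LinearMap.det_toLin', hTe, LinearMap.comp_assoc, LinearMap.det_conj, LinearMap.det_prodMap, LinearMap.det_smul,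
        LinearMap.det_smul, LinearMap.det_id, LinearMap.det_id, mul_one, mul_one] at hdetx
      exact hdetx
    have hwn : w ^ n ≠ -1 := by
      intro h0
      obtain ⟨u, hu⟩ := pow_padicValNat_dvd (p := 2) (n := q + 1)
      have huodd : Odd u := by
        rw [← Nat.not_even_iff_odd, even_iff_two_dvd]
        rintro ⟨e, rfl⟩
        exact pow_succ_padicValNat_not_dvd (p := 2) (n := q + 1) (by omega) ⟨e, by rw [pow_succ, mul_assoc]; exact hu⟩
      obtain ⟨c, hc⟩ := (Nat.pow_dvd_pow 2 hv).trans (pow_padicValNat_dvd (p := 2) (n := n))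
      have h3 : n * u = (q + 1) * c := by rw [hu, hc]; ring
      have h4 : (w ^ n) ^ u = 1 := by rw [← pow_mul, h3, pow_mul, hN1, one_pow]
      rw [h0, huodd.neg_one_pow] at h4
      exact h2ne (by linear_combination -h4)
    have hb : Even (finrank F (E (-w))) := by
      by_contra hodd
      rw [Nat.not_even_iff_odd] at hodd
      rw [Odd.neg_pow hodd, mul_neg, ← pow_add, hdim] at hdet
      exact hwn (by linear_combination -hdet)
    obtain ⟨b, hb⟩ := hb
    obtain ⟨a, ha⟩ : Even (finrank F (E w)) := ⟨k - b, by omega⟩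
    obtain ⟨A, B, hAB, -, -, hA, hB⟩ := exists_lagrangians hF a (E w) (by omega)
      (hnd hsup (horth w (-w) h1))
    obtain ⟨A', B', hAB', -, -, hA', hB'⟩ := exists_lagrangians hF b (E (-w)) (by omega)
      (hnd (sup_comm (E w) (E (-w)) ▸ hsup) (horth (-w) w h1'))
    have hts : ∀ {S S' : Submodule F (Fin n → F)}, S ≤ E w → S' ≤ E (-w) → (∀ u ∈ S, ∀ v ∈ S, h u v = 0) →
        (∀ u ∈ S', ∀ v ∈ S', h u v = 0) → ∀ u ∈ S ⊔ S', ∀ v ∈ S ⊔ S', h u v = 0 := by
      intro S S' hS hS' hSS hSS' u hu v hv'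
      obtain ⟨u1, hu1, u2, hu2, rfl⟩ := Submodule.mem_sup.1 hu
      obtain ⟨v1, hv1, v2, hv2, rfl⟩ := Submodule.mem_sup.1 hv'
      rw [hf.add_left, Herm.add_right hf, Herm.add_right hf, hSS u1 hu1 v1 hv1, hSS' u2 hu2 v2 hv2,
        horth w (-w) h1 u1 (hS hu1) v2 (hS' hv2), horth (-w) w h1' u2 (hS' hu2) v1 (hS hv1)]
      simp
    have hpres : ∀ {S S' : Submodule F (Fin n → F)}, S ≤ E w → S' ≤ E (-w) →
        ∀ u ∈ S ⊔ S', (x.1 : Mat) *ᵥ u ∈ S ⊔ S' := by
      intro S S' hS hS' u hu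
      obtain ⟨u1, hu1, u2, hu2, rfl⟩ := Submodule.mem_sup.1 hu
      rw [Matrix.mulVec_add, (hE w u1).1 (hS hu1), (hE (-w) u2).1 (hS' hu2)]
      exact Submodule.add_mem_sup (S.smul_mem _ hu1) (S'.smul_mem _ hu2)
    exact ⟨A ⊔ A', B ⊔ B', isPair_of_sup hF hn (by rw [sup_sup_sup_comm, hAB, hAB', hsup])
      (hts (le_sup_left.trans hAB.le) (le_sup_left.trans hAB'.le) hA hA')
      (hts (le_sup_right.trans hAB.le) (le_sup_right.trans hAB'.le) hB hB'),
      hpres (le_sup_left.trans hAB.le) (le_sup_left.trans hAB'.le),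
      hpres (le_sup_right.trans hAB.le) (le_sup_right.trans hAB'.le)⟩
  · -- totally singular eigenspaces
    have h1 : w * w ^ q ≠ 1 := by
      rw [← pow_succ', hN1]
      exact fun h0 => h2ne (by linear_combination -h0)
    have h1' : -w * (-w) ^ q ≠ 1 := by
      rw [← pow_succ', hweven.neg_pow, hN1]
      exact fun h0 => h2ne (by linear_combination -h0)
    exact ⟨E w, E (-w), isPair_of_sup hF hn hsup (horth w w h1) (horth (-w) (-w) h1'),
      fun u hu => by rw [(hE w u).1 hu]; exact Submodule.smul_mem _ _ hu,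
      fun u hu => by rw [(hE (-w) u).1 hu]; exact Submodule.smul_mem _ _ hu⟩

end Cfsg.Agent.H19.UPair
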