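import Cfsg.Agent.H19.UnitaryPair

/-! Primes dividing the index of the stabiliser of a pair of complementary totally singular subspaces. -/

set_option autoImplicit false
set_option linter.unusedSectionVars false

namespace Cfsg.Agent.H19.UPair

open scoped Matrix
open Module Cfsg.Agent.H98

variable {F : Type*} [Field F] [Fintype F] {q n : ℕ} (hF : Fintype.card F = q ^ 2)

local notation "Mat" => Matrix (Fin n) (Fin n) F
local notation "h" => Cfsg.hermForm n F q

include hF

/-- The subgroup of `GU` fixing both members. -/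
def fixPair (U W : Submodule F (Fin n → F)) : Subgroup (Cfsg.GU n F q) :=
  H3.guStab n F q (U : Set (Fin n → F)) ⊓ H3.guStab n F q (W : Set (Fin n → F))

/-- The order of the subgroup fixing both members. -/
theorem card_fixPair {U W : Submodule F (Fin n → F)} {k : ℕ} (P : IsPair U W k q) :
    Nat.card (fixPair (q := q) U W) = ∏ i : Fin k, ((q ^ 2) ^ k - (q ^ 2) ^ (i : ℕ)) := by
  classical
  have hf := Herm.isUnitary_std (n := n) hF
  obtain ⟨e, w, he, hw, hli, hsU, hsW, hew⟩ := P.exists_frame hF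
  have hcardL : Nat.card {s : Fin k → U // LinearIndependent F s} = ∏ i : Fin k, ((q ^ 2) ^ k - (q ^ 2) ^ (i : ℕ)) := by
    rw [card_linearIndependent (P.dimU.ge)]
    simp [P.dimU, hF]
  rw [← hcardL]
  have hmem : ∀ g : fixPair (q := q) U W, (∀ u ∈ U, (g.1.1 : Mat) *ᵥ u ∈ U) ∧ ∀ u ∈ W, (g.1.1 : Mat) *ᵥ u ∈ W :=
    fun g => ⟨fun u hu => (H3.mem_guStab.1 g.2.1 u).1 hu, fun u hu => (H3.mem_guStab.1 g.2.2 u).1 hu⟩
  have heli : LinearIndependent F e := by
    have := hli.comp _ (Fin.castAdd_injective k k)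
    convert this using 1
    funext l
    rw [Function.comp_apply, Fin.append_left]
  refine Nat.card_congr (Equiv.ofBijective (fun g => ⟨fun l => ⟨(g.1.1 : Mat) *ᵥ e l, (hmem g).1 _ (he l)⟩,
    LinearIndependent.of_comp U.subtype (H3.linearIndependent_mulVec g.1 heli)⟩) ⟨?_, ?_⟩)
  · intro g g' hgg
    have h1 : ∀ l, (g.1.1 : Mat) *ᵥ e l = (g'.1.1 : Mat) *ᵥ e l := fun l =>
      congrArg Subtype.val (congrFun (congrArg Subtype.val hgg) l)
    have h2 : ∀ y ∈ U, (g.1.1 : Mat) *ᵥ y = (g'.1.1 : Mat) *ᵥ y := by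
      intro y hy
      have hle : U ≤ LinearMap.ker (Matrix.toLin' (g.1.1 : Mat) - Matrix.toLin' (g'.1.1 : Mat)) := by
        conv_lhs => rw [← hsU]
        rw [Submodule.span_le]
        rintro _ ⟨l, rfl⟩
        show (Matrix.toLin' (g.1.1 : Mat) - Matrix.toLin' (g'.1.1 : Mat)) (e l) = 0
        simp [h1 l]
      simpa [sub_eq_zero] using hle hy
    have h3 : ∀ y ∈ W, (g.1.1 : Mat) *ᵥ y = (g'.1.1 : Mat) *ᵥ y := by
      intro y hy
      refine sub_eq_zero.1 (P.eq_zero hF (W.sub_mem ((hmem g).2 y hy) ((hmem g').2 y hy)) fun u hu => ?_)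
      have hinj : Function.Injective ((Matrix.toLin' (g.1.1 : Mat)).restrict (p := U) (q := U)
          (fun v hv => by rw [Matrix.toLin'_apply]; exact (hmem g).1 v hv)) := fun a b hab => by
        have := congrArg Subtype.val hab
        simp only [LinearMap.restrict_coe_apply, Matrix.toLin'_apply] at this
        exact Subtype.ext (H98.gl_mulVec_injective g.1.1 this)
      obtain ⟨⟨u', hu'⟩, huu⟩ := LinearMap.surjective_of_injective hinj ⟨u, hu⟩
      have hgu : (g.1.1 : Mat) *ᵥ u' = u := by simpa using congrArg Subtype.val huu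
      rw [Herm.sub_right hf, ← hgu, H3.GU_preserves g.1, h2 u' hu', H3.GU_preserves g'.1, sub_self]
    refine Subtype.ext (H3.GU_ext fun y => ?_)
    obtain ⟨a, ha, b, hb, rfl⟩ := Submodule.mem_sup.1 (P.compl.sup_eq_top.ge (Submodule.mem_top (x := y)))
    rw [Matrix.mulVec_add, Matrix.mulVec_add, h2 a ha, h3 b hb]
  · rintro ⟨s, hs⟩
    set e' : Fin k → (Fin n → F) := fun l => (s l : Fin n → F) with he'def
    have hsli : LinearIndependent F e' := hs.map' U.subtype (Submodule.ker_subtype U)
    have hspan : Submodule.span F (Set.range e') = U := by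
      refine Submodule.eq_of_le_of_finrank_eq (Submodule.span_le.2 (Set.range_subset_iff.2 fun l => (s l).2)) ?_
      rw [finrank_span_eq_card hsli, P.dimU, Fintype.card_fin]
    -- dual vectors in the second member
    obtain ⟨t, ht, htd⟩ : ∃ t : Fin k → (Fin n → F), (∀ l, t l ∈ W) ∧
        ∀ m l, h (e' m) (t l) = if m = l then 1 else 0 := by
      obtain ⟨bw, hbw⟩ : ∃ bw : Basis (Fin k) F U, ∀ l, (bw l : Fin n → F) = e' l := by
        rcases Nat.eq_zero_or_pos k with rfl | hk
        · exact ⟨(Module.finBasisOfFinrankEq F U P.dimU), fun l => l.elim0⟩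
        haveI : Nonempty (Fin k) := ⟨⟨0, hk⟩⟩
        exact ⟨basisOfLinearIndependentOfCardEqFinrank hs (by rw [Fintype.card_fin, P.dimU]), fun l => by simp [e']⟩
      choose v hv using fun l : Fin k => Herm.fl_surjective hf (bw.coord l ∘ₗ U.projectionOnto W P.compl)
      refine ⟨fun l => (W.projectionOnto U P.compl.symm (v l) : Fin n → F),
        fun l => (W.projectionOnto U P.compl.symm (v l)).2, fun m l => ?_⟩
      have hs' : v l = (U.projectionOnto W P.compl (v l) : Fin n → F) + W.projectionOnto U P.compl.symm (v l) :=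
        (Submodule.projection_add_projection_eq_self P.compl (v l)).symm
      have h1 : h (e' m) (v l) = h (e' m) (W.projectionOnto U P.compl.symm (v l) : Fin n → F) := by
        conv_lhs => rw [hs', Herm.add_right hf, P.tsU _ (s m).2 _ (U.projectionOnto W P.compl (v l)).2, zero_add]
      rw [← h1, ← Herm.fl_apply hf, hv l, LinearMap.comp_apply, ← hbw m, Submodule.projectionOnto_apply_left,
        Basis.coord_apply, Basis.repr_self, Finsupp.single_apply]
    have htli : LinearIndependent F t := by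
      rw [Fintype.linearIndependent_iff]
      intro g hg i
      have h1 : Herm.fl hf (e' i) (∑ j, g j • t j) = g i := by
        simp only [map_sum, map_smul, Herm.fl_apply, smul_eq_mul]
        rw [Finset.sum_eq_single i]
        · rw [← Herm.sigma_apply hf, htd, if_pos rfl, map_one, mul_one]
        · intro j _ hj
          rw [← Herm.sigma_apply hf, htd, if_neg (Ne.symm hj), map_zero, mul_zero]
        · simp
      rw [hg, map_zero] at h1
      exact h1.symm
    have htspan : Submodule.span F (Set.range t) = W := by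
      refine Submodule.eq_of_le_of_finrank_eq (Submodule.span_le.2 (Set.range_subset_iff.2 ht)) ?_
      rw [finrank_span_eq_card htli, P.dimW, Fintype.card_fin]
    have hli' : LinearIndependent F (Fin.append e' t) := by
      have h2 : LinearIndependent F (Sum.elim e' t) :=
        hsli.sum_type htli (by rw [hspan, htspan]; exact P.compl.disjoint)
      have h3 : Fin.append e' t = Sum.elim e' t ∘ finSumFinEquiv.symm := by
        funext i
        refine Fin.addCases (fun j => ?_) (fun j => ?_) i <;>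
          simp only [Fin.append_left, Fin.append_right, Function.comp_apply, finSumFinEquiv_symm_apply_castAdd,
            finSumFinEquiv_symm_apply_natAdd, Sum.elim_inl, Sum.elim_inr]
      rw [h3]
      exact h2.comp _ finSumFinEquiv.symm.injective
    obtain ⟨g, hg⟩ := H3.exists_GU_witt hF (Fin.append e w) (Fin.append e' t) hli hli' fun i j => by
      rw [gram_frame hF P he hw hew, gram_frame hF P (fun l => (s l).2) ht htd]
    have hgU : g ∈ H3.guStab n F q (U : Set (Fin n → F)) := H3.mem_guStab_span hsU fun i => by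
      have := hg (Fin.castAdd k i)
      rw [Fin.append_left, Fin.append_left] at this
      rw [this]; exact (s i).2
    have hgW : g ∈ H3.guStab n F q (W : Set (Fin n → F)) := H3.mem_guStab_span hsW fun i => by
      have := hg (Fin.natAdd k i)
      rw [Fin.append_right, Fin.append_right] at this
      rw [this]; exact ht i
    refine ⟨⟨g, hgU, hgW⟩, Subtype.ext (funext fun l => Subtype.ext ?_)⟩
    have := hg (Fin.castAdd k l)
    rw [Fin.append_left, Fin.append_left] at this
    exact this

omit hF in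
/-- The product over `range (2k)` splits by parity. -/
theorem prod_split (a : ℕ → ℕ) (k : ℕ) :
    ∏ i ∈ Finset.range (k + k), a i = (∏ i ∈ Finset.range k, a (2 * i)) * ∏ i ∈ Finset.range k, a (2 * i + 1) := by
  induction k with
  | zero => simp
  | succ k ih =>
    rw [show k + 1 + (k + 1) = (k + k) + 1 + 1 by ring, Finset.prod_range_succ, Finset.prod_range_succ, ih,
      Finset.prod_range_succ, Finset.prod_range_succ, show k + k = 2 * k by ring]
    ring

/-- Primes dividing the index of a pair stabiliser. -/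
theorem dvd_of_dvd_relIndex {D : Fin 2 → Submodule F (Fin n → F)} {k : ℕ} (P : IsPair (D 0) (D 1) k q) (hk : 0 < k)
    {r : ℕ} (hr : r.Prime) (hrq : ¬ r ∣ q)
    (hΩ : r ∣ (Cfsg.Geo.decompositionStabilizer D).relIndex (Cfsg.GU n F q ⊓ Cfsg.Geo.specialLinear (Fin n) F)) :
    ∃ i < k, r ∣ q ^ (2 * i + 1) + 1 := by
  classical
  have hn := P.two_mul
  set S : Subgroup (Cfsg.GU n F q) := (H3.guDet n F q).ker with hSdef
  set A := fixPair (q := q) (D 0) (D 1) with hAdef
  have hGU := H3.card_GU hF n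
  have hA := card_fixPair hF P
  set G₁ := Cfsg.GU n F q ⊓ Cfsg.Geo.specialLinear (Fin n) F with hG₁
  have hsub : (A ⊓ S).map (Cfsg.GU n F q).subtype ≤ Cfsg.Geo.decompositionStabilizer D ⊓ G₁ := by
    rintro _ ⟨g, ⟨⟨hg0, hg1⟩, hgd⟩, rfl⟩
    refine ⟨⟨1, fun i => ?_⟩, g.2, hgd⟩
    rw [Equiv.Perm.coe_one, id]
    refine Submodule.eq_of_le_of_finrank_eq ?_
      (Submodule.equivMapOfInjective (Matrix.toLin' (g.1 : Mat)) (fun a b hab =>
        H98.gl_mulVec_injective g.1 (by simpa using hab)) (D i)).finrank_eq.symm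
    rintro _ ⟨v, hv, rfl⟩
    rw [Matrix.toLin'_apply]
    fin_cases i
    · exact (H3.mem_guStab.1 hg0 v).1 hv
    · exact (H3.mem_guStab.1 hg1 v).1 hv
  have e1 : Nat.card ↥G₁ = Nat.card ↥S := by
    have h1 : S.map (Cfsg.GU n F q).subtype = G₁ := by
      ext g
      constructor
      · rintro ⟨g, hg, rfl⟩; exact ⟨g.2, hg⟩
      · rintro ⟨hg, hd⟩; exact ⟨⟨g, hg⟩, hd, rfl⟩
    rw [← h1, Subgroup.card_map_of_injective (Subgroup.subtype_injective _)]
  have e2 : (Cfsg.Geo.decompositionStabilizer D).relIndex G₁ * Nat.card ↥(A ⊓ S) ∣ Nat.card ↥S := by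
    rw [← e1, ← Subgroup.inf_relIndex_right]
    have h1 := Subgroup.card_mul_index ((Cfsg.Geo.decompositionStabilizer D ⊓ G₁).subgroupOf G₁)
    rw [Nat.card_congr (Subgroup.subgroupOfEquivOfLe inf_le_right).toEquiv] at h1
    rw [← h1, mul_comm (Nat.card _)]
    refine Nat.mul_dvd_mul_left _ ?_
    rw [← Subgroup.card_map_of_injective (Subgroup.subtype_injective (Cfsg.GU n F q)) (K := A ⊓ S)]
    exact Subgroup.card_dvd_of_le hsub
  have e3 : Nat.card ↥S * (q + 1) = Nat.card (Cfsg.GU n F q) := by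
    rw [← S.card_mul_index, hSdef, Subgroup.index_ker, H3.range_guDet hF (by omega), H3.card_norm_one_units hF]
  have e4 : Nat.card ↥A ∣ Nat.card ↥(A ⊓ S) * (q + 1) := by
    have h1 := Subgroup.card_mul_index (S.subgroupOf A)
    have hcA : Nat.card ↥(S.subgroupOf A) = Nat.card ↥(A ⊓ S) := by
      rw [inf_comm, ← Subgroup.inf_subgroupOf_right, Nat.card_congr (Subgroup.subgroupOfEquivOfLe inf_le_right).toEquiv]
    rw [← h1, hcA]
    refine Nat.mul_dvd_mul_left _ ?_
    have h2 : S.relIndex A ∣ S.index := Subgroup.relIndex_dvd_index_of_normal S A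
    rw [hSdef, Subgroup.index_ker, H3.range_guDet hF (by omega), H3.card_norm_one_units hF] at h2
    exact h2
  have e5 : (Cfsg.Geo.decompositionStabilizer D).relIndex G₁ * Nat.card ↥A ∣ Nat.card (Cfsg.GU n F q) := by
    rw [← e3]
    refine (Nat.mul_dvd_mul_left _ e4).trans ?_
    rw [← mul_assoc]
    exact Nat.mul_dvd_mul_right e2 _
  obtain ⟨M, hM⟩ : ∃ M, ∏ i : Fin k, ((q ^ 2) ^ k - (q ^ 2) ^ (i : ℕ)) =
      q ^ M * ∏ i ∈ Finset.range k, (q ^ (2 * i + 2) - 1) := by
    refine ⟨∑ i ∈ Finset.range k, 2 * i, ?_⟩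
    rw [Fin.prod_univ_eq_prod_range (fun i => (q ^ 2) ^ k - (q ^ 2) ^ i),
      ← Finset.prod_pow_eq_pow_sum (s := Finset.range k) (f := fun i => 2 * i) (a := q),
      ← Finset.prod_range_reflect (fun i => q ^ (2 * i + 2) - 1) k, ← Finset.prod_mul_distrib]
    refine Finset.prod_congr rfl fun i hi => ?_
    have := Finset.mem_range.1 hi
    rw [← pow_mul, ← pow_mul, Nat.mul_sub, mul_one, ← pow_add, show 2 * i + (2 * (k - 1 - i) + 2) = 2 * k by omega]
  rw [hA, hM, hGU] at e5
  generalize (Cfsg.Geo.decompositionStabilizer D).relIndex G₁ = I at e5 hΩ ⊢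
  rw [hn, prod_split] at e5
  have h6 : ∀ i : ℕ, (if Even (2 * i) then q ^ (2 * i + 1) + 1 else q ^ (2 * i + 1) - 1) = q ^ (2 * i + 1) + 1 :=
    fun i => if_pos (even_two_mul i)
  have h7 : ∀ i : ℕ, (if Even (2 * i + 1) then q ^ (2 * i + 1 + 1) + 1 else q ^ (2 * i + 1 + 1) - 1) =
      q ^ (2 * i + 2) - 1 := fun i => if_neg (Nat.not_even_iff_odd.2 ⟨i, rfl⟩)
  simp only [h6, h7] at e5
  set E := ∏ i ∈ Finset.range k, (q ^ (2 * i + 2) - 1) with hE
  set O := ∏ i ∈ Finset.range k, (q ^ (2 * i + 1) + 1) with hO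
  have hq := H3.two_le_q hF
  have hEpos : 0 < E := Finset.prod_pos fun i _ => by
    have : q ^ 1 ≤ q ^ (2 * i + 2) := Nat.pow_le_pow_right (by omega) (by omega)
    rw [pow_one] at this
    omega
  set N := (k + k) * (k + k - 1) / 2
  have e6 : I * q ^ M ∣ q ^ N * O := by
    refine Nat.dvd_of_mul_dvd_mul_right hEpos ?_
    rw [mul_assoc, mul_assoc]
    exact e5
  have e7 : r ∣ q ^ N * O := (hΩ.trans (Dvd.intro _ rfl)).trans e6
  rcases hr.dvd_mul.1 e7 with h8 | h8
  · exact absurd (hr.dvd_of_dvd_pow h8) hrq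
  · obtain ⟨i, hi, hri⟩ := hr.prime.exists_mem_finset_dvd h8
    exact ⟨i, Finset.mem_range.1 hi, hri⟩

end Cfsg.Agent.H19.UPair
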